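import Mathlib
import Cfsg.Agent.Lib.Helper56.TC
import Cfsg.Agent.Lib.Helper56.RSz.D
set_option autoImplicit false
set_option maxRecDepth 1000000

namespace Cfsg.Agent.Lib.Helper56.RSz

open Cfsg.Agent.Lib.Helper56.TC Cfsg.Agent.Lib.Helper56.TC.Tabs

theorem cN_0 : allRange (fun x => forceN T.chkName x) 0 327 = true := by decide +kernel
theorem cN_327 : allRange (fun x => forceN T.chkName x) 327 306 = true := by decide +kernel
theorem cN_633 : allRange (fun x => forceN T.chkName x) 633 311 = true := by decide +kernel
theorem cN_944 : allRange (fun x => forceN T.chkName x) 944 311 = true := by decide +kernel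
theorem cN_1255 : allRange (fun x => forceN T.chkName x) 1255 291 = true := by decide +kernel
theorem cN_1546 : allRange (fun x => forceN T.chkName x) 1546 360 = true := by decide +kernel
theorem cN_1906 : allRange (fun x => forceN T.chkName x) 1906 363 = true := by decide +kernel
theorem cN_2269 : allRange (fun x => forceN T.chkName x) 2269 340 = true := by decide +kernel
theorem cN_2609 : allRange (fun x => forceN T.chkName x) 2609 307 = true := by decide +kernel
theorem cN_2916 : allRange (fun x => forceN T.chkName x) 2916 355 = true := by decide +kernel
theorem cN_3271 : allRange (fun x => forceN T.chkName x) 3271 367 = true := by decide +kernel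
theorem cN_3638 : allRange (fun x => forceN T.chkName x) 3638 340 = true := by decide +kernel

end Cfsg.Agent.Lib.Helper56.RSz
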