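import Mathlib
import Cfsg.Agent.Lib.Helper56.TC
import Cfsg.Agent.Lib.Helper56.RSz.D
set_option autoImplicit false
set_option maxRecDepth 1000000

namespace Cfsg.Agent.Lib.Helper56.RSz

open Cfsg.Agent.Lib.Helper56.TC Cfsg.Agent.Lib.Helper56.TC.Tabs

theorem cN_3978 : allRange (fun x => forceN T.chkName x) 3978 337 = true := by decide +kernel
theorem cN_4315 : allRange (fun x => forceN T.chkName x) 4315 335 = true := by decide +kernel
theorem cN_4650 : allRange (fun x => forceN T.chkName x) 4650 317 = true := by decide +kernel
theorem cN_4967 : allRange (fun x => forceN T.chkName x) 4967 349 = true := by decide +kernel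
theorem cN_5316 : allRange (fun x => forceN T.chkName x) 5316 324 = true := by decide +kernel
theorem cN_5640 : allRange (fun x => forceN T.chkName x) 5640 329 = true := by decide +kernel
theorem cN_5969 : allRange (fun x => forceN T.chkName x) 5969 327 = true := by decide +kernel
theorem cN_6296 : allRange (fun x => forceN T.chkName x) 6296 335 = true := by decide +kernel
theorem cN_6631 : allRange (fun x => forceN T.chkName x) 6631 331 = true := by decide +kernel
theorem cN_6962 : allRange (fun x => forceN T.chkName x) 6962 335 = true := by decide +kernel
theorem cN_7297 : allRange (fun x => forceN T.chkName x) 7297 369 = true := by decide +kernel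
theorem cN_7666 : allRange (fun x => forceN T.chkName x) 7666 306 = true := by decide +kernel

end Cfsg.Agent.Lib.Helper56.RSz
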