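import Mathlib
import Cfsg.Agent.Lib.Helper56.TC
import Cfsg.Agent.Lib.Helper56.RSz.D
set_option autoImplicit false
set_option maxRecDepth 1000000

namespace Cfsg.Agent.Lib.Helper56.RSz

open Cfsg.Agent.Lib.Helper56.TC Cfsg.Agent.Lib.Helper56.TC.Tabs

theorem cN_47464 : allRange (fun x => forceN T.chkName x) 47464 499 = true := by decide +kernel
theorem cN_47963 : allRange (fun x => forceN T.chkName x) 47963 494 = true := by decide +kernel
theorem cN_48457 : allRange (fun x => forceN T.chkName x) 48457 514 = true := by decide +kernel
theorem cN_48971 : allRange (fun x => forceN T.chkName x) 48971 499 = true := by decide +kernel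
theorem cN_49470 : allRange (fun x => forceN T.chkName x) 49470 501 = true := by decide +kernel
theorem cN_49971 : allRange (fun x => forceN T.chkName x) 49971 501 = true := by decide +kernel
theorem cN_50472 : allRange (fun x => forceN T.chkName x) 50472 505 = true := by decide +kernel
theorem cN_50977 : allRange (fun x => forceN T.chkName x) 50977 512 = true := by decide +kernel
theorem cN_51489 : allRange (fun x => forceN T.chkName x) 51489 512 = true := by decide +kernel
theorem cN_52001 : allRange (fun x => forceN T.chkName x) 52001 490 = true := by decide +kernel
theorem cN_52491 : allRange (fun x => forceN T.chkName x) 52491 491 = true := by decide +kernel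
theorem cN_52982 : allRange (fun x => forceN T.chkName x) 52982 493 = true := by decide +kernel

end Cfsg.Agent.Lib.Helper56.RSz
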