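import Mathlib
import Cfsg.Agent.Lib.Helper56.TC
import Cfsg.Agent.Lib.Helper56.RSz.D
set_option autoImplicit false
set_option maxRecDepth 1000000

namespace Cfsg.Agent.Lib.Helper56.RSz

open Cfsg.Agent.Lib.Helper56.TC Cfsg.Agent.Lib.Helper56.TC.Tabs

theorem cN_53475 : allRange (fun x => forceN T.chkName x) 53475 503 = true := by decide +kernel
theorem cN_53978 : allRange (fun x => forceN T.chkName x) 53978 495 = true := by decide +kernel
theorem cN_54473 : allRange (fun x => forceN T.chkName x) 54473 505 = true := by decide +kernel
theorem cN_54978 : allRange (fun x => forceN T.chkName x) 54978 505 = true := by decide +kernel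
theorem cN_55483 : allRange (fun x => forceN T.chkName x) 55483 499 = true := by decide +kernel
theorem cN_55982 : allRange (fun x => forceN T.chkName x) 55982 511 = true := by decide +kernel
theorem cN_56493 : allRange (fun x => forceN T.chkName x) 56493 491 = true := by decide +kernel
theorem cN_56984 : allRange (fun x => forceN T.chkName x) 56984 500 = true := by decide +kernel
theorem cN_57484 : allRange (fun x => forceN T.chkName x) 57484 474 = true := by decide +kernel
theorem cN_57958 : allRange (fun x => forceN T.chkName x) 57958 429 = true := by decide +kernel
theorem cN_58387 : allRange (fun x => forceN T.chkName x) 58387 361 = true := by decide +kernel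
theorem cN_58748 : allRange (fun x => forceN T.chkName x) 58748 369 = true := by decide +kernel

end Cfsg.Agent.Lib.Helper56.RSz
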