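import Mathlib
import Cfsg.Agent.Lib.Helper56.TC
import Cfsg.Agent.Lib.Helper56.RSz.D
set_option autoImplicit false
set_option maxRecDepth 1000000

namespace Cfsg.Agent.Lib.Helper56.RSz

open Cfsg.Agent.Lib.Helper56.TC Cfsg.Agent.Lib.Helper56.TC.Tabs

theorem cN_59117 : allRange (fun x => forceN T.chkName x) 59117 340 = true := by decide +kernel
theorem cN_59457 : allRange (fun x => forceN T.chkName x) 59457 363 = true := by decide +kernel
theorem cN_59820 : allRange (fun x => forceN T.chkName x) 59820 359 = true := by decide +kernel
theorem cN_60179 : allRange (fun x => forceN T.chkName x) 60179 377 = true := by decide +kernel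
theorem cN_60556 : allRange (fun x => forceN T.chkName x) 60556 361 = true := by decide +kernel
theorem cN_60917 : allRange (fun x => forceN T.chkName x) 60917 390 = true := by decide +kernel
theorem cN_61307 : allRange (fun x => forceN T.chkName x) 61307 376 = true := by decide +kernel
theorem cN_61683 : allRange (fun x => forceN T.chkName x) 61683 363 = true := by decide +kernel
theorem cN_62046 : allRange (fun x => forceN T.chkName x) 62046 418 = true := by decide +kernel
theorem cN_62464 : allRange (fun x => forceN T.chkName x) 62464 356 = true := by decide +kernel
theorem cN_62820 : allRange (fun x => forceN T.chkName x) 62820 384 = true := by decide +kernel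
theorem cN_63204 : allRange (fun x => forceN T.chkName x) 63204 336 = true := by decide +kernel

end Cfsg.Agent.Lib.Helper56.RSz
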