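import Mathlib
import Cfsg.Agent.Lib.Helper56.TC
import Cfsg.Agent.Lib.Helper56.RSz.D
set_option autoImplicit false
set_option maxRecDepth 1000000

namespace Cfsg.Agent.Lib.Helper56.RSz

open Cfsg.Agent.Lib.Helper56.TC Cfsg.Agent.Lib.Helper56.TC.Tabs

theorem cN_63540 : allRange (fun x => forceN T.chkName x) 63540 410 = true := by decide +kernel
theorem cN_63950 : allRange (fun x => forceN T.chkName x) 63950 367 = true := by decide +kernel
theorem cN_64317 : allRange (fun x => forceN T.chkName x) 64317 377 = true := by decide +kernel
theorem cN_64694 : allRange (fun x => forceN T.chkName x) 64694 419 = true := by decide +kernel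
theorem cN_65113 : allRange (fun x => forceN T.chkName x) 65113 487 = true := by decide +kernel
theorem cN_65600 : allRange (fun x => forceN T.chkName x) 65600 463 = true := by decide +kernel
theorem cN_66063 : allRange (fun x => forceN T.chkName x) 66063 339 = true := by decide +kernel
theorem cN_66402 : allRange (fun x => forceN T.chkName x) 66402 365 = true := by decide +kernel
theorem cN_66767 : allRange (fun x => forceN T.chkName x) 66767 391 = true := by decide +kernel
theorem cN_67158 : allRange (fun x => forceN T.chkName x) 67158 376 = true := by decide +kernel
theorem cN_67534 : allRange (fun x => forceN T.chkName x) 67534 381 = true := by decide +kernel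
theorem cN_67915 : allRange (fun x => forceN T.chkName x) 67915 413 = true := by decide +kernel

end Cfsg.Agent.Lib.Helper56.RSz
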