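import Mathlib
import Cfsg.Agent.Lib.Helper56.TC
import Cfsg.Agent.Lib.Helper56.RSz.D
set_option autoImplicit false
set_option maxRecDepth 1000000

namespace Cfsg.Agent.Lib.Helper56.RSz

open Cfsg.Agent.Lib.Helper56.TC Cfsg.Agent.Lib.Helper56.TC.Tabs

theorem cN_68328 : allRange (fun x => forceN T.chkName x) 68328 392 = true := by decide +kernel
theorem cN_68720 : allRange (fun x => forceN T.chkName x) 68720 379 = true := by decide +kernel
theorem cN_69099 : allRange (fun x => forceN T.chkName x) 69099 390 = true := by decide +kernel
theorem cN_69489 : allRange (fun x => forceN T.chkName x) 69489 342 = true := by decide +kernel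
theorem cN_69831 : allRange (fun x => forceN T.chkName x) 69831 352 = true := by decide +kernel
theorem cN_70183 : allRange (fun x => forceN T.chkName x) 70183 380 = true := by decide +kernel
theorem cN_70563 : allRange (fun x => forceN T.chkName x) 70563 370 = true := by decide +kernel
theorem cN_70933 : allRange (fun x => forceN T.chkName x) 70933 385 = true := by decide +kernel
theorem cN_71318 : allRange (fun x => forceN T.chkName x) 71318 385 = true := by decide +kernel
theorem cN_71703 : allRange (fun x => forceN T.chkName x) 71703 379 = true := by decide +kernel
theorem cN_72082 : allRange (fun x => forceN T.chkName x) 72082 390 = true := by decide +kernel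
theorem cN_72472 : allRange (fun x => forceN T.chkName x) 72472 398 = true := by decide +kernel

end Cfsg.Agent.Lib.Helper56.RSz
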