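import Mathlib
import Cfsg.Agent.Lib.Helper56.TC
import Cfsg.Agent.Lib.Helper56.RSz.D
set_option autoImplicit false
set_option maxRecDepth 1000000

namespace Cfsg.Agent.Lib.Helper56.RSz

open Cfsg.Agent.Lib.Helper56.TC Cfsg.Agent.Lib.Helper56.TC.Tabs

theorem cN_72870 : allRange (fun x => forceN T.chkName x) 72870 374 = true := by decide +kernel
theorem cN_73244 : allRange (fun x => forceN T.chkName x) 73244 420 = true := by decide +kernel
theorem cN_73664 : allRange (fun x => forceN T.chkName x) 73664 436 = true := by decide +kernel
theorem cN_74100 : allRange (fun x => forceN T.chkName x) 74100 419 = true := by decide +kernel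
theorem cN_74519 : allRange (fun x => forceN T.chkName x) 74519 412 = true := by decide +kernel
theorem cN_74931 : allRange (fun x => forceN T.chkName x) 74931 418 = true := by decide +kernel
theorem cN_75349 : allRange (fun x => forceN T.chkName x) 75349 415 = true := by decide +kernel
theorem cN_75764 : allRange (fun x => forceN T.chkName x) 75764 436 = true := by decide +kernel
theorem cN_76200 : allRange (fun x => forceN T.chkName x) 76200 415 = true := by decide +kernel
theorem cN_76615 : allRange (fun x => forceN T.chkName x) 76615 454 = true := by decide +kernel
theorem cN_77069 : allRange (fun x => forceN T.chkName x) 77069 493 = true := by decide +kernel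
theorem cN_77562 : allRange (fun x => forceN T.chkName x) 77562 466 = true := by decide +kernel

end Cfsg.Agent.Lib.Helper56.RSz
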