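import Mathlib
import Cfsg.Agent.Lib.Helper56.TC
import Cfsg.Agent.Lib.Helper56.RSz.D
set_option autoImplicit false
set_option maxRecDepth 1000000

namespace Cfsg.Agent.Lib.Helper56.RSz

open Cfsg.Agent.Lib.Helper56.TC Cfsg.Agent.Lib.Helper56.TC.Tabs

theorem cN_78028 : allRange (fun x => forceN T.chkName x) 78028 476 = true := by decide +kernel
theorem cN_78504 : allRange (fun x => forceN T.chkName x) 78504 497 = true := by decide +kernel
theorem cN_79001 : allRange (fun x => forceN T.chkName x) 79001 493 = true := by decide +kernel
theorem cN_79494 : allRange (fun x => forceN T.chkName x) 79494 501 = true := by decide +kernel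
theorem cN_79995 : allRange (fun x => forceN T.chkName x) 79995 464 = true := by decide +kernel
theorem cN_80459 : allRange (fun x => forceN T.chkName x) 80459 457 = true := by decide +kernel
theorem cN_80916 : allRange (fun x => forceN T.chkName x) 80916 437 = true := by decide +kernel
theorem cN_81353 : allRange (fun x => forceN T.chkName x) 81353 461 = true := by decide +kernel
theorem cN_81814 : allRange (fun x => forceN T.chkName x) 81814 418 = true := by decide +kernel
theorem cN_82232 : allRange (fun x => forceN T.chkName x) 82232 378 = true := by decide +kernel
theorem cN_82610 : allRange (fun x => forceN T.chkName x) 82610 384 = true := by decide +kernel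
theorem cN_82994 : allRange (fun x => forceN T.chkName x) 82994 382 = true := by decide +kernel

end Cfsg.Agent.Lib.Helper56.RSz
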