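import Mathlib
import Cfsg.Agent.Lib.Helper56.TC
import Cfsg.Agent.Lib.Helper56.RSz.D
set_option autoImplicit false
set_option maxRecDepth 1000000

namespace Cfsg.Agent.Lib.Helper56.RSz

open Cfsg.Agent.Lib.Helper56.TC Cfsg.Agent.Lib.Helper56.TC.Tabs

theorem cN_83376 : allRange (fun x => forceN T.chkName x) 83376 382 = true := by decide +kernel
theorem cN_83758 : allRange (fun x => forceN T.chkName x) 83758 409 = true := by decide +kernel
theorem cN_84167 : allRange (fun x => forceN T.chkName x) 84167 368 = true := by decide +kernel
theorem cN_84535 : allRange (fun x => forceN T.chkName x) 84535 397 = true := by decide +kernel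
theorem cN_84932 : allRange (fun x => forceN T.chkName x) 84932 399 = true := by decide +kernel
theorem cN_85331 : allRange (fun x => forceN T.chkName x) 85331 408 = true := by decide +kernel
theorem cN_85739 : allRange (fun x => forceN T.chkName x) 85739 364 = true := by decide +kernel
theorem cN_86103 : allRange (fun x => forceN T.chkName x) 86103 413 = true := by decide +kernel
theorem cN_86516 : allRange (fun x => forceN T.chkName x) 86516 393 = true := by decide +kernel
theorem cN_86909 : allRange (fun x => forceN T.chkName x) 86909 441 = true := by decide +kernel
theorem cN_87350 : allRange (fun x => forceN T.chkName x) 87350 400 = true := by decide +kernel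
theorem cN_87750 : allRange (fun x => forceN T.chkName x) 87750 430 = true := by decide +kernel

end Cfsg.Agent.Lib.Helper56.RSz
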