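import Mathlib
import Cfsg.Agent.Lib.Helper56.TC
import Cfsg.Agent.Lib.Helper56.RSz.D
set_option autoImplicit false
set_option maxRecDepth 1000000

namespace Cfsg.Agent.Lib.Helper56.RSz

open Cfsg.Agent.Lib.Helper56.TC Cfsg.Agent.Lib.Helper56.TC.Tabs

theorem cN_88180 : allRange (fun x => forceN T.chkName x) 88180 419 = true := by decide +kernel
theorem cN_88599 : allRange (fun x => forceN T.chkName x) 88599 385 = true := by decide +kernel
theorem cN_88984 : allRange (fun x => forceN T.chkName x) 88984 368 = true := by decide +kernel
theorem cN_89352 : allRange (fun x => forceN T.chkName x) 89352 383 = true := by decide +kernel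
theorem cN_89735 : allRange (fun x => forceN T.chkName x) 89735 416 = true := by decide +kernel
theorem cN_90151 : allRange (fun x => forceN T.chkName x) 90151 386 = true := by decide +kernel
theorem cN_90537 : allRange (fun x => forceN T.chkName x) 90537 400 = true := by decide +kernel
theorem cN_90937 : allRange (fun x => forceN T.chkName x) 90937 361 = true := by decide +kernel
theorem cN_91298 : allRange (fun x => forceN T.chkName x) 91298 376 = true := by decide +kernel
theorem cN_91674 : allRange (fun x => forceN T.chkName x) 91674 378 = true := by decide +kernel
theorem cN_92052 : allRange (fun x => forceN T.chkName x) 92052 379 = true := by decide +kernel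
theorem cN_92431 : allRange (fun x => forceN T.chkName x) 92431 367 = true := by decide +kernel

end Cfsg.Agent.Lib.Helper56.RSz
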