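import Mathlib
import Cfsg.Agent.Lib.Helper56.TC
import Cfsg.Agent.Lib.Helper56.RSz.D
set_option autoImplicit false
set_option maxRecDepth 1000000

namespace Cfsg.Agent.Lib.Helper56.RSz

open Cfsg.Agent.Lib.Helper56.TC Cfsg.Agent.Lib.Helper56.TC.Tabs

theorem cN_92798 : allRange (fun x => forceN T.chkName x) 92798 347 = true := by decide +kernel
theorem cN_93145 : allRange (fun x => forceN T.chkName x) 93145 364 = true := by decide +kernel
theorem cN_93509 : allRange (fun x => forceN T.chkName x) 93509 383 = true := by decide +kernel
theorem cN_93892 : allRange (fun x => forceN T.chkName x) 93892 326 = true := by decide +kernel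
theorem cN_94218 : allRange (fun x => forceN T.chkName x) 94218 327 = true := by decide +kernel
theorem cN_94545 : allRange (fun x => forceN T.chkName x) 94545 368 = true := by decide +kernel
theorem cN_94913 : allRange (fun x => forceN T.chkName x) 94913 365 = true := by decide +kernel
theorem cN_95278 : allRange (fun x => forceN T.chkName x) 95278 395 = true := by decide +kernel
theorem cN_95673 : allRange (fun x => forceN T.chkName x) 95673 376 = true := by decide +kernel
theorem cN_96049 : allRange (fun x => forceN T.chkName x) 96049 378 = true := by decide +kernel
theorem cN_96427 : allRange (fun x => forceN T.chkName x) 96427 382 = true := by decide +kernel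
theorem cN_96809 : allRange (fun x => forceN T.chkName x) 96809 414 = true := by decide +kernel

end Cfsg.Agent.Lib.Helper56.RSz
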