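import Mathlib
import Cfsg.Agent.Lib.Helper56.TC
import Cfsg.Agent.Lib.Helper56.RSz.D
set_option autoImplicit false
set_option maxRecDepth 1000000

namespace Cfsg.Agent.Lib.Helper56.RSz

open Cfsg.Agent.Lib.Helper56.TC Cfsg.Agent.Lib.Helper56.TC.Tabs

theorem cN_7972 : allRange (fun x => forceN T.chkName x) 7972 339 = true := by decide +kernel
theorem cN_8311 : allRange (fun x => forceN T.chkName x) 8311 331 = true := by decide +kernel
theorem cN_8642 : allRange (fun x => forceN T.chkName x) 8642 306 = true := by decide +kernel
theorem cN_8948 : allRange (fun x => forceN T.chkName x) 8948 272 = true := by decide +kernel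
theorem cN_9220 : allRange (fun x => forceN T.chkName x) 9220 296 = true := by decide +kernel
theorem cN_9516 : allRange (fun x => forceN T.chkName x) 9516 317 = true := by decide +kernel
theorem cN_9833 : allRange (fun x => forceN T.chkName x) 9833 275 = true := by decide +kernel
theorem cN_10108 : allRange (fun x => forceN T.chkName x) 10108 304 = true := by decide +kernel
theorem cN_10412 : allRange (fun x => forceN T.chkName x) 10412 295 = true := by decide +kernel
theorem cN_10707 : allRange (fun x => forceN T.chkName x) 10707 323 = true := by decide +kernel
theorem cN_11030 : allRange (fun x => forceN T.chkName x) 11030 349 = true := by decide +kernel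
theorem cN_11379 : allRange (fun x => forceN T.chkName x) 11379 301 = true := by decide +kernel

end Cfsg.Agent.Lib.Helper56.RSz
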