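import Mathlib
import Cfsg.Agent.Lib.Helper56.TC
import Cfsg.Agent.Lib.Helper56.RSz.D
set_option autoImplicit false
set_option maxRecDepth 1000000

namespace Cfsg.Agent.Lib.Helper56.RSz

open Cfsg.Agent.Lib.Helper56.TC Cfsg.Agent.Lib.Helper56.TC.Tabs

theorem cN_97223 : allRange (fun x => forceN T.chkName x) 97223 422 = true := by decide +kernel
theorem cN_97645 : allRange (fun x => forceN T.chkName x) 97645 385 = true := by decide +kernel
theorem cN_98030 : allRange (fun x => forceN T.chkName x) 98030 417 = true := by decide +kernel
theorem cN_98447 : allRange (fun x => forceN T.chkName x) 98447 402 = true := by decide +kernel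
theorem cN_98849 : allRange (fun x => forceN T.chkName x) 98849 414 = true := by decide +kernel
theorem cN_99263 : allRange (fun x => forceN T.chkName x) 99263 393 = true := by decide +kernel
theorem cN_99656 : allRange (fun x => forceN T.chkName x) 99656 412 = true := by decide +kernel
theorem cN_100068 : allRange (fun x => forceN T.chkName x) 100068 411 = true := by decide +kernel
theorem cN_100479 : allRange (fun x => forceN T.chkName x) 100479 383 = true := by decide +kernel
theorem cN_100862 : allRange (fun x => forceN T.chkName x) 100862 388 = true := by decide +kernel
theorem cN_101250 : allRange (fun x => forceN T.chkName x) 101250 411 = true := by decide +kernel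
theorem cN_101661 : allRange (fun x => forceN T.chkName x) 101661 416 = true := by decide +kernel

end Cfsg.Agent.Lib.Helper56.RSz
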