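import Mathlib
import Cfsg.Agent.Lib.Helper56.TC
import Cfsg.Agent.Lib.Helper56.RSz.D
set_option autoImplicit false
set_option maxRecDepth 1000000

namespace Cfsg.Agent.Lib.Helper56.RSz

open Cfsg.Agent.Lib.Helper56.TC Cfsg.Agent.Lib.Helper56.TC.Tabs

theorem cN_102077 : allRange (fun x => forceN T.chkName x) 102077 396 = true := by decide +kernel
theorem cN_102473 : allRange (fun x => forceN T.chkName x) 102473 416 = true := by decide +kernel
theorem cN_102889 : allRange (fun x => forceN T.chkName x) 102889 412 = true := by decide +kernel
theorem cN_103301 : allRange (fun x => forceN T.chkName x) 103301 362 = true := by decide +kernel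
theorem cN_103663 : allRange (fun x => forceN T.chkName x) 103663 330 = true := by decide +kernel
theorem cN_103993 : allRange (fun x => forceN T.chkName x) 103993 362 = true := by decide +kernel
theorem cN_104355 : allRange (fun x => forceN T.chkName x) 104355 376 = true := by decide +kernel
theorem cN_104731 : allRange (fun x => forceN T.chkName x) 104731 398 = true := by decide +kernel
theorem cN_105129 : allRange (fun x => forceN T.chkName x) 105129 386 = true := by decide +kernel
theorem cN_105515 : allRange (fun x => forceN T.chkName x) 105515 384 = true := by decide +kernel
theorem cN_105899 : allRange (fun x => forceN T.chkName x) 105899 391 = true := by decide +kernel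
theorem cN_106290 : allRange (fun x => forceN T.chkName x) 106290 392 = true := by decide +kernel

end Cfsg.Agent.Lib.Helper56.RSz
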