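import Mathlib
import Cfsg.Agent.Lib.Helper56.TC
import Cfsg.Agent.Lib.Helper56.RSz.D
set_option autoImplicit false
set_option maxRecDepth 1000000

namespace Cfsg.Agent.Lib.Helper56.RSz

open Cfsg.Agent.Lib.Helper56.TC Cfsg.Agent.Lib.Helper56.TC.Tabs

theorem cN_106682 : allRange (fun x => forceN T.chkName x) 106682 387 = true := by decide +kernel
theorem cN_107069 : allRange (fun x => forceN T.chkName x) 107069 398 = true := by decide +kernel
theorem cN_107467 : allRange (fun x => forceN T.chkName x) 107467 386 = true := by decide +kernel
theorem cN_107853 : allRange (fun x => forceN T.chkName x) 107853 384 = true := by decide +kernel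
theorem cN_108237 : allRange (fun x => forceN T.chkName x) 108237 386 = true := by decide +kernel
theorem cN_108623 : allRange (fun x => forceN T.chkName x) 108623 394 = true := by decide +kernel
theorem cN_109017 : allRange (fun x => forceN T.chkName x) 109017 392 = true := by decide +kernel
theorem cN_109409 : allRange (fun x => forceN T.chkName x) 109409 402 = true := by decide +kernel
theorem cN_109811 : allRange (fun x => forceN T.chkName x) 109811 370 = true := by decide +kernel
theorem cN_110181 : allRange (fun x => forceN T.chkName x) 110181 392 = true := by decide +kernel
theorem cN_110573 : allRange (fun x => forceN T.chkName x) 110573 397 = true := by decide +kernel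
theorem cN_110970 : allRange (fun x => forceN T.chkName x) 110970 386 = true := by decide +kernel

end Cfsg.Agent.Lib.Helper56.RSz
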