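import Mathlib
import Cfsg.Agent.Lib.Helper56.TC
import Cfsg.Agent.Lib.Helper56.RSz.D
set_option autoImplicit false
set_option maxRecDepth 1000000

namespace Cfsg.Agent.Lib.Helper56.RSz

open Cfsg.Agent.Lib.Helper56.TC Cfsg.Agent.Lib.Helper56.TC.Tabs

theorem cN_111356 : allRange (fun x => forceN T.chkName x) 111356 377 = true := by decide +kernel
theorem cN_111733 : allRange (fun x => forceN T.chkName x) 111733 367 = true := by decide +kernel
theorem cN_112100 : allRange (fun x => forceN T.chkName x) 112100 390 = true := by decide +kernel
theorem cN_112490 : allRange (fun x => forceN T.chkName x) 112490 406 = true := by decide +kernel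
theorem cN_112896 : allRange (fun x => forceN T.chkName x) 112896 376 = true := by decide +kernel
theorem cN_113272 : allRange (fun x => forceN T.chkName x) 113272 384 = true := by decide +kernel
theorem cN_113656 : allRange (fun x => forceN T.chkName x) 113656 380 = true := by decide +kernel
theorem cN_114036 : allRange (fun x => forceN T.chkName x) 114036 378 = true := by decide +kernel
theorem cN_114414 : allRange (fun x => forceN T.chkName x) 114414 399 = true := by decide +kernel
theorem cN_114813 : allRange (fun x => forceN T.chkName x) 114813 401 = true := by decide +kernel
theorem cN_115214 : allRange (fun x => forceN T.chkName x) 115214 403 = true := by decide +kernel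
theorem cN_115617 : allRange (fun x => forceN T.chkName x) 115617 400 = true := by decide +kernel

end Cfsg.Agent.Lib.Helper56.RSz
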