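import Mathlib
import Cfsg.Agent.Lib.Helper56.TC
import Cfsg.Agent.Lib.Helper56.RSz.D
set_option autoImplicit false
set_option maxRecDepth 1000000

namespace Cfsg.Agent.Lib.Helper56.RSz

open Cfsg.Agent.Lib.Helper56.TC Cfsg.Agent.Lib.Helper56.TC.Tabs

theorem cN_116017 : allRange (fun x => forceN T.chkName x) 116017 427 = true := by decide +kernel
theorem cN_116444 : allRange (fun x => forceN T.chkName x) 116444 386 = true := by decide +kernel
theorem cN_116830 : allRange (fun x => forceN T.chkName x) 116830 406 = true := by decide +kernel
theorem cN_117236 : allRange (fun x => forceN T.chkName x) 117236 445 = true := by decide +kernel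
theorem cN_117681 : allRange (fun x => forceN T.chkName x) 117681 416 = true := by decide +kernel
theorem cN_118097 : allRange (fun x => forceN T.chkName x) 118097 411 = true := by decide +kernel
theorem cN_118508 : allRange (fun x => forceN T.chkName x) 118508 436 = true := by decide +kernel
theorem cN_118944 : allRange (fun x => forceN T.chkName x) 118944 419 = true := by decide +kernel
theorem cN_119363 : allRange (fun x => forceN T.chkName x) 119363 412 = true := by decide +kernel
theorem cN_119775 : allRange (fun x => forceN T.chkName x) 119775 403 = true := by decide +kernel
theorem cN_120178 : allRange (fun x => forceN T.chkName x) 120178 442 = true := by decide +kernel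
theorem cN_120620 : allRange (fun x => forceN T.chkName x) 120620 427 = true := by decide +kernel

end Cfsg.Agent.Lib.Helper56.RSz
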