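import Mathlib
import Cfsg.Agent.Lib.Helper56.TC
import Cfsg.Agent.Lib.Helper56.RSz.D
set_option autoImplicit false
set_option maxRecDepth 1000000

namespace Cfsg.Agent.Lib.Helper56.RSz

open Cfsg.Agent.Lib.Helper56.TC Cfsg.Agent.Lib.Helper56.TC.Tabs

theorem cN_121047 : allRange (fun x => forceN T.chkName x) 121047 405 = true := by decide +kernel
theorem cN_121452 : allRange (fun x => forceN T.chkName x) 121452 418 = true := by decide +kernel
theorem cN_121870 : allRange (fun x => forceN T.chkName x) 121870 440 = true := by decide +kernel
theorem cN_122310 : allRange (fun x => forceN T.chkName x) 122310 407 = true := by decide +kernel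
theorem cN_122717 : allRange (fun x => forceN T.chkName x) 122717 411 = true := by decide +kernel
theorem cN_123128 : allRange (fun x => forceN T.chkName x) 123128 428 = true := by decide +kernel
theorem cN_123556 : allRange (fun x => forceN T.chkName x) 123556 429 = true := by decide +kernel
theorem cN_123985 : allRange (fun x => forceN T.chkName x) 123985 422 = true := by decide +kernel
theorem cN_124407 : allRange (fun x => forceN T.chkName x) 124407 427 = true := by decide +kernel
theorem cN_124834 : allRange (fun x => forceN T.chkName x) 124834 416 = true := by decide +kernel
theorem cN_125250 : allRange (fun x => forceN T.chkName x) 125250 422 = true := by decide +kernel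
theorem cN_125672 : allRange (fun x => forceN T.chkName x) 125672 412 = true := by decide +kernel

end Cfsg.Agent.Lib.Helper56.RSz
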