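import Mathlib
import Cfsg.Agent.Lib.Helper56.TC
import Cfsg.Agent.Lib.Helper56.RSz.D
set_option autoImplicit false
set_option maxRecDepth 1000000

namespace Cfsg.Agent.Lib.Helper56.RSz

open Cfsg.Agent.Lib.Helper56.TC Cfsg.Agent.Lib.Helper56.TC.Tabs

theorem cN_126084 : allRange (fun x => forceN T.chkName x) 126084 425 = true := by decide +kernel
theorem cN_126509 : allRange (fun x => forceN T.chkName x) 126509 420 = true := by decide +kernel
theorem cN_126929 : allRange (fun x => forceN T.chkName x) 126929 406 = true := by decide +kernel
theorem cN_127335 : allRange (fun x => forceN T.chkName x) 127335 437 = true := by decide +kernel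
theorem cN_127772 : allRange (fun x => forceN T.chkName x) 127772 401 = true := by decide +kernel
theorem cN_128173 : allRange (fun x => forceN T.chkName x) 128173 416 = true := by decide +kernel
theorem cN_128589 : allRange (fun x => forceN T.chkName x) 128589 400 = true := by decide +kernel
theorem cN_128989 : allRange (fun x => forceN T.chkName x) 128989 408 = true := by decide +kernel
theorem cN_129397 : allRange (fun x => forceN T.chkName x) 129397 441 = true := by decide +kernel
theorem cN_129838 : allRange (fun x => forceN T.chkName x) 129838 381 = true := by decide +kernel
theorem cN_130219 : allRange (fun x => forceN T.chkName x) 130219 410 = true := by decide +kernel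
theorem cN_130629 : allRange (fun x => forceN T.chkName x) 130629 405 = true := by decide +kernel

end Cfsg.Agent.Lib.Helper56.RSz
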