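import Mathlib
import Cfsg.Agent.Lib.Helper56.TC
import Cfsg.Agent.Lib.Helper56.RSz.D
set_option autoImplicit false
set_option maxRecDepth 1000000

namespace Cfsg.Agent.Lib.Helper56.RSz

open Cfsg.Agent.Lib.Helper56.TC Cfsg.Agent.Lib.Helper56.TC.Tabs

theorem cN_131034 : allRange (fun x => forceN T.chkName x) 131034 428 = true := by decide +kernel
theorem cN_131462 : allRange (fun x => forceN T.chkName x) 131462 383 = true := by decide +kernel
theorem cN_131845 : allRange (fun x => forceN T.chkName x) 131845 391 = true := by decide +kernel
theorem cN_132236 : allRange (fun x => forceN T.chkName x) 132236 386 = true := by decide +kernel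
theorem cN_132622 : allRange (fun x => forceN T.chkName x) 132622 391 = true := by decide +kernel
theorem cN_133013 : allRange (fun x => forceN T.chkName x) 133013 357 = true := by decide +kernel
theorem cN_133370 : allRange (fun x => forceN T.chkName x) 133370 391 = true := by decide +kernel
theorem cN_133761 : allRange (fun x => forceN T.chkName x) 133761 424 = true := by decide +kernel
theorem cN_134185 : allRange (fun x => forceN T.chkName x) 134185 400 = true := by decide +kernel
theorem cN_134585 : allRange (fun x => forceN T.chkName x) 134585 400 = true := by decide +kernel
theorem cN_134985 : allRange (fun x => forceN T.chkName x) 134985 396 = true := by decide +kernel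
theorem cN_135381 : allRange (fun x => forceN T.chkName x) 135381 423 = true := by decide +kernel

end Cfsg.Agent.Lib.Helper56.RSz
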