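import Mathlib
import Cfsg.Agent.Lib.Helper56.TC
import Cfsg.Agent.Lib.Helper56.RSz.D
set_option autoImplicit false
set_option maxRecDepth 1000000

namespace Cfsg.Agent.Lib.Helper56.RSz

open Cfsg.Agent.Lib.Helper56.TC Cfsg.Agent.Lib.Helper56.TC.Tabs

theorem cN_135804 : allRange (fun x => forceN T.chkName x) 135804 424 = true := by decide +kernel
theorem cN_136228 : allRange (fun x => forceN T.chkName x) 136228 434 = true := by decide +kernel
theorem cN_136662 : allRange (fun x => forceN T.chkName x) 136662 387 = true := by decide +kernel
theorem cN_137049 : allRange (fun x => forceN T.chkName x) 137049 413 = true := by decide +kernel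
theorem cN_137462 : allRange (fun x => forceN T.chkName x) 137462 426 = true := by decide +kernel
theorem cN_137888 : allRange (fun x => forceN T.chkName x) 137888 420 = true := by decide +kernel
theorem cN_138308 : allRange (fun x => forceN T.chkName x) 138308 435 = true := by decide +kernel
theorem cN_138743 : allRange (fun x => forceN T.chkName x) 138743 453 = true := by decide +kernel
theorem cN_139196 : allRange (fun x => forceN T.chkName x) 139196 450 = true := by decide +kernel
theorem cN_139646 : allRange (fun x => forceN T.chkName x) 139646 400 = true := by decide +kernel
theorem cN_140046 : allRange (fun x => forceN T.chkName x) 140046 400 = true := by decide +kernel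
theorem cN_140446 : allRange (fun x => forceN T.chkName x) 140446 415 = true := by decide +kernel

end Cfsg.Agent.Lib.Helper56.RSz
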