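import Mathlib
import Cfsg.Agent.Lib.Helper56.TC
import Cfsg.Agent.Lib.Helper56.RSz.D
set_option autoImplicit false
set_option maxRecDepth 1000000

namespace Cfsg.Agent.Lib.Helper56.RSz

open Cfsg.Agent.Lib.Helper56.TC Cfsg.Agent.Lib.Helper56.TC.Tabs

theorem cN_140861 : allRange (fun x => forceN T.chkName x) 140861 426 = true := by decide +kernel
theorem cN_141287 : allRange (fun x => forceN T.chkName x) 141287 418 = true := by decide +kernel
theorem cN_141705 : allRange (fun x => forceN T.chkName x) 141705 429 = true := by decide +kernel
theorem cN_142134 : allRange (fun x => forceN T.chkName x) 142134 428 = true := by decide +kernel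
theorem cN_142562 : allRange (fun x => forceN T.chkName x) 142562 454 = true := by decide +kernel
theorem cN_143016 : allRange (fun x => forceN T.chkName x) 143016 421 = true := by decide +kernel
theorem cN_143437 : allRange (fun x => forceN T.chkName x) 143437 442 = true := by decide +kernel
theorem cN_143879 : allRange (fun x => forceN T.chkName x) 143879 435 = true := by decide +kernel
theorem cN_144314 : allRange (fun x => forceN T.chkName x) 144314 420 = true := by decide +kernel
theorem cN_144734 : allRange (fun x => forceN T.chkName x) 144734 410 = true := by decide +kernel
theorem cN_145144 : allRange (fun x => forceN T.chkName x) 145144 450 = true := by decide +kernel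
theorem cN_145594 : allRange (fun x => forceN T.chkName x) 145594 406 = true := by decide +kernel

end Cfsg.Agent.Lib.Helper56.RSz
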