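import Mathlib
import Cfsg.Agent.Lib.Helper56.TC
import Cfsg.Agent.Lib.Helper56.RSz.D
set_option autoImplicit false
set_option maxRecDepth 1000000

namespace Cfsg.Agent.Lib.Helper56.RSz

open Cfsg.Agent.Lib.Helper56.TC Cfsg.Agent.Lib.Helper56.TC.Tabs

theorem cN_11680 : allRange (fun x => forceN T.chkName x) 11680 300 = true := by decide +kernel
theorem cN_11980 : allRange (fun x => forceN T.chkName x) 11980 360 = true := by decide +kernel
theorem cN_12340 : allRange (fun x => forceN T.chkName x) 12340 345 = true := by decide +kernel
theorem cN_12685 : allRange (fun x => forceN T.chkName x) 12685 334 = true := by decide +kernel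
theorem cN_13019 : allRange (fun x => forceN T.chkName x) 13019 369 = true := by decide +kernel
theorem cN_13388 : allRange (fun x => forceN T.chkName x) 13388 408 = true := by decide +kernel
theorem cN_13796 : allRange (fun x => forceN T.chkName x) 13796 367 = true := by decide +kernel
theorem cN_14163 : allRange (fun x => forceN T.chkName x) 14163 437 = true := by decide +kernel
theorem cN_14600 : allRange (fun x => forceN T.chkName x) 14600 398 = true := by decide +kernel
theorem cN_14998 : allRange (fun x => forceN T.chkName x) 14998 435 = true := by decide +kernel
theorem cN_15433 : allRange (fun x => forceN T.chkName x) 15433 413 = true := by decide +kernel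
theorem cN_15846 : allRange (fun x => forceN T.chkName x) 15846 424 = true := by decide +kernel

end Cfsg.Agent.Lib.Helper56.RSz
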