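import Mathlib
import Cfsg.Agent.Lib.Helper56.TC
import Cfsg.Agent.Lib.Helper56.RSz.D
set_option autoImplicit false
set_option maxRecDepth 1000000

namespace Cfsg.Agent.Lib.Helper56.RSz

open Cfsg.Agent.Lib.Helper56.TC Cfsg.Agent.Lib.Helper56.TC.Tabs

theorem cN_146000 : allRange (fun x => forceN T.chkName x) 146000 437 = true := by decide +kernel
theorem cN_146437 : allRange (fun x => forceN T.chkName x) 146437 421 = true := by decide +kernel
theorem cN_146858 : allRange (fun x => forceN T.chkName x) 146858 420 = true := by decide +kernel
theorem cN_147278 : allRange (fun x => forceN T.chkName x) 147278 414 = true := by decide +kernel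
theorem cN_147692 : allRange (fun x => forceN T.chkName x) 147692 455 = true := by decide +kernel
theorem cN_148147 : allRange (fun x => forceN T.chkName x) 148147 423 = true := by decide +kernel
theorem cN_148570 : allRange (fun x => forceN T.chkName x) 148570 453 = true := by decide +kernel
theorem cN_149023 : allRange (fun x => forceN T.chkName x) 149023 469 = true := by decide +kernel
theorem cN_149492 : allRange (fun x => forceN T.chkName x) 149492 452 = true := by decide +kernel
theorem cN_149944 : allRange (fun x => forceN T.chkName x) 149944 471 = true := by decide +kernel
theorem cN_150415 : allRange (fun x => forceN T.chkName x) 150415 452 = true := by decide +kernel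
theorem cN_150867 : allRange (fun x => forceN T.chkName x) 150867 456 = true := by decide +kernel

end Cfsg.Agent.Lib.Helper56.RSz
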