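import Mathlib
import Cfsg.Agent.Lib.Helper56.TC
import Cfsg.Agent.Lib.Helper56.RSz.D
set_option autoImplicit false
set_option maxRecDepth 1000000

namespace Cfsg.Agent.Lib.Helper56.RSz

open Cfsg.Agent.Lib.Helper56.TC Cfsg.Agent.Lib.Helper56.TC.Tabs

theorem cN_151323 : allRange (fun x => forceN T.chkName x) 151323 452 = true := by decide +kernel
theorem cN_151775 : allRange (fun x => forceN T.chkName x) 151775 437 = true := by decide +kernel
theorem cN_152212 : allRange (fun x => forceN T.chkName x) 152212 432 = true := by decide +kernel
theorem cN_152644 : allRange (fun x => forceN T.chkName x) 152644 436 = true := by decide +kernel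
theorem cN_153080 : allRange (fun x => forceN T.chkName x) 153080 421 = true := by decide +kernel
theorem cN_153501 : allRange (fun x => forceN T.chkName x) 153501 404 = true := by decide +kernel
theorem cN_153905 : allRange (fun x => forceN T.chkName x) 153905 418 = true := by decide +kernel
theorem cN_154323 : allRange (fun x => forceN T.chkName x) 154323 442 = true := by decide +kernel
theorem cN_154765 : allRange (fun x => forceN T.chkName x) 154765 419 = true := by decide +kernel
theorem cN_155184 : allRange (fun x => forceN T.chkName x) 155184 384 = true := by decide +kernel
theorem cN_155568 : allRange (fun x => forceN T.chkName x) 155568 417 = true := by decide +kernel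
theorem cN_155985 : allRange (fun x => forceN T.chkName x) 155985 393 = true := by decide +kernel

end Cfsg.Agent.Lib.Helper56.RSz
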