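import Mathlib
import Cfsg.Agent.Lib.Helper56.TC
import Cfsg.Agent.Lib.Helper56.RSz.D
set_option autoImplicit false
set_option maxRecDepth 1000000

namespace Cfsg.Agent.Lib.Helper56.RSz

open Cfsg.Agent.Lib.Helper56.TC Cfsg.Agent.Lib.Helper56.TC.Tabs

theorem cN_156378 : allRange (fun x => forceN T.chkName x) 156378 412 = true := by decide +kernel
theorem cN_156790 : allRange (fun x => forceN T.chkName x) 156790 420 = true := by decide +kernel
theorem cN_157210 : allRange (fun x => forceN T.chkName x) 157210 426 = true := by decide +kernel
theorem cN_157636 : allRange (fun x => forceN T.chkName x) 157636 428 = true := by decide +kernel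
theorem cN_158064 : allRange (fun x => forceN T.chkName x) 158064 449 = true := by decide +kernel
theorem cN_158513 : allRange (fun x => forceN T.chkName x) 158513 460 = true := by decide +kernel
theorem cN_158973 : allRange (fun x => forceN T.chkName x) 158973 437 = true := by decide +kernel
theorem cN_159410 : allRange (fun x => forceN T.chkName x) 159410 418 = true := by decide +kernel
theorem cN_159828 : allRange (fun x => forceN T.chkName x) 159828 424 = true := by decide +kernel
theorem cN_160252 : allRange (fun x => forceN T.chkName x) 160252 428 = true := by decide +kernel
theorem cN_160680 : allRange (fun x => forceN T.chkName x) 160680 423 = true := by decide +kernel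
theorem cN_161103 : allRange (fun x => forceN T.chkName x) 161103 403 = true := by decide +kernel

end Cfsg.Agent.Lib.Helper56.RSz
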