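import Mathlib
import Cfsg.Agent.Lib.Helper56.TC
import Cfsg.Agent.Lib.Helper56.RSz.D
set_option autoImplicit false
set_option maxRecDepth 1000000

namespace Cfsg.Agent.Lib.Helper56.RSz

open Cfsg.Agent.Lib.Helper56.TC Cfsg.Agent.Lib.Helper56.TC.Tabs

theorem cN_161506 : allRange (fun x => forceN T.chkName x) 161506 441 = true := by decide +kernel
theorem cN_161947 : allRange (fun x => forceN T.chkName x) 161947 414 = true := by decide +kernel
theorem cN_162361 : allRange (fun x => forceN T.chkName x) 162361 431 = true := by decide +kernel
theorem cN_162792 : allRange (fun x => forceN T.chkName x) 162792 419 = true := by decide +kernel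
theorem cN_163211 : allRange (fun x => forceN T.chkName x) 163211 402 = true := by decide +kernel
theorem cN_163613 : allRange (fun x => forceN T.chkName x) 163613 418 = true := by decide +kernel
theorem cN_164031 : allRange (fun x => forceN T.chkName x) 164031 448 = true := by decide +kernel
theorem cN_164479 : allRange (fun x => forceN T.chkName x) 164479 437 = true := by decide +kernel
theorem cN_164916 : allRange (fun x => forceN T.chkName x) 164916 435 = true := by decide +kernel
theorem cN_165351 : allRange (fun x => forceN T.chkName x) 165351 424 = true := by decide +kernel
theorem cN_165775 : allRange (fun x => forceN T.chkName x) 165775 423 = true := by decide +kernel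
theorem cN_166198 : allRange (fun x => forceN T.chkName x) 166198 411 = true := by decide +kernel

end Cfsg.Agent.Lib.Helper56.RSz
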