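import Mathlib
import Cfsg.Agent.Lib.Helper56.TC
import Cfsg.Agent.Lib.Helper56.RSz.D
set_option autoImplicit false
set_option maxRecDepth 1000000

namespace Cfsg.Agent.Lib.Helper56.RSz

open Cfsg.Agent.Lib.Helper56.TC Cfsg.Agent.Lib.Helper56.TC.Tabs

theorem cN_166609 : allRange (fun x => forceN T.chkName x) 166609 452 = true := by decide +kernel
theorem cN_167061 : allRange (fun x => forceN T.chkName x) 167061 451 = true := by decide +kernel
theorem cN_167512 : allRange (fun x => forceN T.chkName x) 167512 447 = true := by decide +kernel
theorem cN_167959 : allRange (fun x => forceN T.chkName x) 167959 458 = true := by decide +kernel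
theorem cN_168417 : allRange (fun x => forceN T.chkName x) 168417 443 = true := by decide +kernel
theorem cN_168860 : allRange (fun x => forceN T.chkName x) 168860 448 = true := by decide +kernel
theorem cN_169308 : allRange (fun x => forceN T.chkName x) 169308 453 = true := by decide +kernel
theorem cN_169761 : allRange (fun x => forceN T.chkName x) 169761 438 = true := by decide +kernel
theorem cN_170199 : allRange (fun x => forceN T.chkName x) 170199 416 = true := by decide +kernel
theorem cN_170615 : allRange (fun x => forceN T.chkName x) 170615 408 = true := by decide +kernel
theorem cN_171023 : allRange (fun x => forceN T.chkName x) 171023 447 = true := by decide +kernel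
theorem cN_171470 : allRange (fun x => forceN T.chkName x) 171470 401 = true := by decide +kernel

end Cfsg.Agent.Lib.Helper56.RSz
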