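import Mathlib
import Cfsg.Agent.Lib.Helper56.TC
import Cfsg.Agent.Lib.Helper56.RSz.D
set_option autoImplicit false
set_option maxRecDepth 1000000

namespace Cfsg.Agent.Lib.Helper56.RSz

open Cfsg.Agent.Lib.Helper56.TC Cfsg.Agent.Lib.Helper56.TC.Tabs

theorem cN_171871 : allRange (fun x => forceN T.chkName x) 171871 430 = true := by decide +kernel
theorem cN_172301 : allRange (fun x => forceN T.chkName x) 172301 431 = true := by decide +kernel
theorem cN_172732 : allRange (fun x => forceN T.chkName x) 172732 448 = true := by decide +kernel
theorem cN_173180 : allRange (fun x => forceN T.chkName x) 173180 404 = true := by decide +kernel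
theorem cN_173584 : allRange (fun x => forceN T.chkName x) 173584 434 = true := by decide +kernel
theorem cN_174018 : allRange (fun x => forceN T.chkName x) 174018 450 = true := by decide +kernel
theorem cN_174468 : allRange (fun x => forceN T.chkName x) 174468 454 = true := by decide +kernel
theorem cN_174922 : allRange (fun x => forceN T.chkName x) 174922 382 = true := by decide +kernel
theorem cV_0 : allRange (fun x => forceN T.chkV x) 0 29 = true := by decide +kernel
theorem cV_29 : allRange (fun x => forceN T.chkV x) 29 29 = true := by decide +kernel
theorem cV_58 : allRange (fun x => forceN T.chkV x) 58 29 = true := by decide +kernel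
theorem cV_87 : allRange (fun x => forceN T.chkV x) 87 29 = true := by decide +kernel

end Cfsg.Agent.Lib.Helper56.RSz
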