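import Mathlib
import Cfsg.Agent.Lib.Helper56.TC
import Cfsg.Agent.Lib.Helper56.RSz.D
set_option autoImplicit false
set_option maxRecDepth 1000000

namespace Cfsg.Agent.Lib.Helper56.RSz

open Cfsg.Agent.Lib.Helper56.TC Cfsg.Agent.Lib.Helper56.TC.Tabs

theorem cV_116 : allRange (fun x => forceN T.chkV x) 116 29 = true := by decide +kernel
theorem cV_145 : allRange (fun x => forceN T.chkV x) 145 29 = true := by decide +kernel
theorem cV_174 : allRange (fun x => forceN T.chkV x) 174 29 = true := by decide +kernel
theorem cV_203 : allRange (fun x => forceN T.chkV x) 203 29 = true := by decide +kernel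
theorem cV_232 : allRange (fun x => forceN T.chkV x) 232 29 = true := by decide +kernel
theorem cV_261 : allRange (fun x => forceN T.chkV x) 261 29 = true := by decide +kernel
theorem cV_290 : allRange (fun x => forceN T.chkV x) 290 29 = true := by decide +kernel
theorem cV_319 : allRange (fun x => forceN T.chkV x) 319 29 = true := by decide +kernel
theorem cV_348 : allRange (fun x => forceN T.chkV x) 348 29 = true := by decide +kernel
theorem cV_377 : allRange (fun x => forceN T.chkV x) 377 29 = true := by decide +kernel
theorem cV_406 : allRange (fun x => forceN T.chkV x) 406 29 = true := by decide +kernel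
theorem cV_435 : allRange (fun x => forceN T.chkV x) 435 29 = true := by decide +kernel

end Cfsg.Agent.Lib.Helper56.RSz
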