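import Mathlib
import Cfsg.Agent.Lib.Helper56.TC
import Cfsg.Agent.Lib.Helper56.RSz.D
set_option autoImplicit false
set_option maxRecDepth 1000000

namespace Cfsg.Agent.Lib.Helper56.RSz

open Cfsg.Agent.Lib.Helper56.TC Cfsg.Agent.Lib.Helper56.TC.Tabs

theorem cV_464 : allRange (fun x => forceN T.chkV x) 464 29 = true := by decide +kernel
theorem cV_493 : allRange (fun x => forceN T.chkV x) 493 29 = true := by decide +kernel
theorem cV_522 : allRange (fun x => forceN T.chkV x) 522 29 = true := by decide +kernel
theorem cV_551 : allRange (fun x => forceN T.chkV x) 551 29 = true := by decide +kernel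
theorem cV_580 : allRange (fun x => forceN T.chkV x) 580 29 = true := by decide +kernel
theorem cV_609 : allRange (fun x => forceN T.chkV x) 609 29 = true := by decide +kernel
theorem cV_638 : allRange (fun x => forceN T.chkV x) 638 29 = true := by decide +kernel
theorem cV_667 : allRange (fun x => forceN T.chkV x) 667 29 = true := by decide +kernel
theorem cV_696 : allRange (fun x => forceN T.chkV x) 696 29 = true := by decide +kernel
theorem cV_725 : allRange (fun x => forceN T.chkV x) 725 29 = true := by decide +kernel
theorem cV_754 : allRange (fun x => forceN T.chkV x) 754 29 = true := by decide +kernel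
theorem cV_783 : allRange (fun x => forceN T.chkV x) 783 29 = true := by decide +kernel

end Cfsg.Agent.Lib.Helper56.RSz
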