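import Mathlib
import Cfsg.Agent.Lib.Helper56.TC
import Cfsg.Agent.Lib.Helper56.RSz.D
set_option autoImplicit false
set_option maxRecDepth 1000000

namespace Cfsg.Agent.Lib.Helper56.RSz

open Cfsg.Agent.Lib.Helper56.TC Cfsg.Agent.Lib.Helper56.TC.Tabs

theorem cV_812 : allRange (fun x => forceN T.chkV x) 812 29 = true := by decide +kernel
theorem cV_841 : allRange (fun x => forceN T.chkV x) 841 29 = true := by decide +kernel
theorem cV_870 : allRange (fun x => forceN T.chkV x) 870 29 = true := by decide +kernel
theorem cV_899 : allRange (fun x => forceN T.chkV x) 899 29 = true := by decide +kernel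
theorem cV_928 : allRange (fun x => forceN T.chkV x) 928 29 = true := by decide +kernel
theorem cV_957 : allRange (fun x => forceN T.chkV x) 957 29 = true := by decide +kernel
theorem cV_986 : allRange (fun x => forceN T.chkV x) 986 29 = true := by decide +kernel
theorem cV_1015 : allRange (fun x => forceN T.chkV x) 1015 29 = true := by decide +kernel
theorem cV_1044 : allRange (fun x => forceN T.chkV x) 1044 29 = true := by decide +kernel
theorem cV_1073 : allRange (fun x => forceN T.chkV x) 1073 29 = true := by decide +kernel
theorem cV_1102 : allRange (fun x => forceN T.chkV x) 1102 29 = true := by decide +kernel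
theorem cV_1131 : allRange (fun x => forceN T.chkV x) 1131 29 = true := by decide +kernel

end Cfsg.Agent.Lib.Helper56.RSz
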