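import Mathlib
import Cfsg.Agent.Lib.Helper56.TC
import Cfsg.Agent.Lib.Helper56.RSz.D
set_option autoImplicit false
set_option maxRecDepth 1000000

namespace Cfsg.Agent.Lib.Helper56.RSz

open Cfsg.Agent.Lib.Helper56.TC Cfsg.Agent.Lib.Helper56.TC.Tabs

theorem cV_1160 : allRange (fun x => forceN T.chkV x) 1160 29 = true := by decide +kernel
theorem cV_1189 : allRange (fun x => forceN T.chkV x) 1189 29 = true := by decide +kernel
theorem cV_1218 : allRange (fun x => forceN T.chkV x) 1218 29 = true := by decide +kernel
theorem cV_1247 : allRange (fun x => forceN T.chkV x) 1247 29 = true := by decide +kernel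
theorem cV_1276 : allRange (fun x => forceN T.chkV x) 1276 29 = true := by decide +kernel
theorem cV_1305 : allRange (fun x => forceN T.chkV x) 1305 29 = true := by decide +kernel
theorem cV_1334 : allRange (fun x => forceN T.chkV x) 1334 29 = true := by decide +kernel
theorem cV_1363 : allRange (fun x => forceN T.chkV x) 1363 29 = true := by decide +kernel
theorem cV_1392 : allRange (fun x => forceN T.chkV x) 1392 29 = true := by decide +kernel
theorem cV_1421 : allRange (fun x => forceN T.chkV x) 1421 29 = true := by decide +kernel
theorem cV_1450 : allRange (fun x => forceN T.chkV x) 1450 29 = true := by decide +kernel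
theorem cV_1479 : allRange (fun x => forceN T.chkV x) 1479 29 = true := by decide +kernel

end Cfsg.Agent.Lib.Helper56.RSz
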