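import Mathlib
import Cfsg.Agent.Lib.Helper56.TC
import Cfsg.Agent.Lib.Helper56.RSz.D
set_option autoImplicit false
set_option maxRecDepth 1000000

namespace Cfsg.Agent.Lib.Helper56.RSz

open Cfsg.Agent.Lib.Helper56.TC Cfsg.Agent.Lib.Helper56.TC.Tabs

theorem cN_16270 : allRange (fun x => forceN T.chkName x) 16270 341 = true := by decide +kernel
theorem cN_16611 : allRange (fun x => forceN T.chkName x) 16611 393 = true := by decide +kernel
theorem cN_17004 : allRange (fun x => forceN T.chkName x) 17004 314 = true := by decide +kernel
theorem cN_17318 : allRange (fun x => forceN T.chkName x) 17318 381 = true := by decide +kernel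
theorem cN_17699 : allRange (fun x => forceN T.chkName x) 17699 362 = true := by decide +kernel
theorem cN_18061 : allRange (fun x => forceN T.chkName x) 18061 406 = true := by decide +kernel
theorem cN_18467 : allRange (fun x => forceN T.chkName x) 18467 406 = true := by decide +kernel
theorem cN_18873 : allRange (fun x => forceN T.chkName x) 18873 379 = true := by decide +kernel
theorem cN_19252 : allRange (fun x => forceN T.chkName x) 19252 390 = true := by decide +kernel
theorem cN_19642 : allRange (fun x => forceN T.chkName x) 19642 365 = true := by decide +kernel
theorem cN_20007 : allRange (fun x => forceN T.chkName x) 20007 445 = true := by decide +kernel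
theorem cN_20452 : allRange (fun x => forceN T.chkName x) 20452 432 = true := by decide +kernel

end Cfsg.Agent.Lib.Helper56.RSz
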