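import Mathlib
import Cfsg.Agent.Lib.Helper56.TC
import Cfsg.Agent.Lib.Helper56.RSz.D
set_option autoImplicit false
set_option maxRecDepth 1000000

namespace Cfsg.Agent.Lib.Helper56.RSz

open Cfsg.Agent.Lib.Helper56.TC Cfsg.Agent.Lib.Helper56.TC.Tabs

theorem cV_1508 : allRange (fun x => forceN T.chkV x) 1508 29 = true := by decide +kernel
theorem cV_1537 : allRange (fun x => forceN T.chkV x) 1537 29 = true := by decide +kernel
theorem cV_1566 : allRange (fun x => forceN T.chkV x) 1566 29 = true := by decide +kernel
theorem cV_1595 : allRange (fun x => forceN T.chkV x) 1595 29 = true := by decide +kernel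
theorem cV_1624 : allRange (fun x => forceN T.chkV x) 1624 29 = true := by decide +kernel
theorem cV_1653 : allRange (fun x => forceN T.chkV x) 1653 29 = true := by decide +kernel
theorem cV_1682 : allRange (fun x => forceN T.chkV x) 1682 29 = true := by decide +kernel
theorem cV_1711 : allRange (fun x => forceN T.chkV x) 1711 29 = true := by decide +kernel
theorem cV_1740 : allRange (fun x => forceN T.chkV x) 1740 29 = true := by decide +kernel
theorem cV_1769 : allRange (fun x => forceN T.chkV x) 1769 29 = true := by decide +kernel
theorem cV_1798 : allRange (fun x => forceN T.chkV x) 1798 29 = true := by decide +kernel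
theorem cV_1827 : allRange (fun x => forceN T.chkV x) 1827 29 = true := by decide +kernel

end Cfsg.Agent.Lib.Helper56.RSz
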