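import Mathlib
import Cfsg.Agent.Lib.Helper56.TC
import Cfsg.Agent.Lib.Helper56.RSz.D
set_option autoImplicit false
set_option maxRecDepth 1000000

namespace Cfsg.Agent.Lib.Helper56.RSz

open Cfsg.Agent.Lib.Helper56.TC Cfsg.Agent.Lib.Helper56.TC.Tabs

theorem cV_1856 : allRange (fun x => forceN T.chkV x) 1856 29 = true := by decide +kernel
theorem cV_1885 : allRange (fun x => forceN T.chkV x) 1885 29 = true := by decide +kernel
theorem cV_1914 : allRange (fun x => forceN T.chkV x) 1914 29 = true := by decide +kernel
theorem cV_1943 : allRange (fun x => forceN T.chkV x) 1943 29 = true := by decide +kernel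
theorem cV_1972 : allRange (fun x => forceN T.chkV x) 1972 29 = true := by decide +kernel
theorem cV_2001 : allRange (fun x => forceN T.chkV x) 2001 29 = true := by decide +kernel
theorem cV_2030 : allRange (fun x => forceN T.chkV x) 2030 29 = true := by decide +kernel
theorem cV_2059 : allRange (fun x => forceN T.chkV x) 2059 29 = true := by decide +kernel
theorem cV_2088 : allRange (fun x => forceN T.chkV x) 2088 29 = true := by decide +kernel
theorem cV_2117 : allRange (fun x => forceN T.chkV x) 2117 29 = true := by decide +kernel
theorem cV_2146 : allRange (fun x => forceN T.chkV x) 2146 29 = true := by decide +kernel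
theorem cV_2175 : allRange (fun x => forceN T.chkV x) 2175 29 = true := by decide +kernel

end Cfsg.Agent.Lib.Helper56.RSz
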