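import Mathlib
import Cfsg.Agent.Lib.Helper56.TC
import Cfsg.Agent.Lib.Helper56.RSz.D
set_option autoImplicit false
set_option maxRecDepth 1000000

namespace Cfsg.Agent.Lib.Helper56.RSz

open Cfsg.Agent.Lib.Helper56.TC Cfsg.Agent.Lib.Helper56.TC.Tabs

theorem cV_2204 : allRange (fun x => forceN T.chkV x) 2204 29 = true := by decide +kernel
theorem cV_2233 : allRange (fun x => forceN T.chkV x) 2233 29 = true := by decide +kernel
theorem cV_2262 : allRange (fun x => forceN T.chkV x) 2262 29 = true := by decide +kernel
theorem cV_2291 : allRange (fun x => forceN T.chkV x) 2291 29 = true := by decide +kernel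
theorem cV_2320 : allRange (fun x => forceN T.chkV x) 2320 29 = true := by decide +kernel
theorem cV_2349 : allRange (fun x => forceN T.chkV x) 2349 29 = true := by decide +kernel
theorem cV_2378 : allRange (fun x => forceN T.chkV x) 2378 29 = true := by decide +kernel
theorem cV_2407 : allRange (fun x => forceN T.chkV x) 2407 29 = true := by decide +kernel
theorem cV_2436 : allRange (fun x => forceN T.chkV x) 2436 29 = true := by decide +kernel
theorem cV_2465 : allRange (fun x => forceN T.chkV x) 2465 29 = true := by decide +kernel
theorem cV_2494 : allRange (fun x => forceN T.chkV x) 2494 29 = true := by decide +kernel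
theorem cV_2523 : allRange (fun x => forceN T.chkV x) 2523 29 = true := by decide +kernel

end Cfsg.Agent.Lib.Helper56.RSz
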