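import Mathlib
import Cfsg.Agent.Lib.Helper56.TC
import Cfsg.Agent.Lib.Helper56.RSz.D
set_option autoImplicit false
set_option maxRecDepth 1000000

namespace Cfsg.Agent.Lib.Helper56.RSz

open Cfsg.Agent.Lib.Helper56.TC Cfsg.Agent.Lib.Helper56.TC.Tabs

theorem cV_2552 : allRange (fun x => forceN T.chkV x) 2552 29 = true := by decide +kernel
theorem cV_2581 : allRange (fun x => forceN T.chkV x) 2581 29 = true := by decide +kernel
theorem cV_2610 : allRange (fun x => forceN T.chkV x) 2610 29 = true := by decide +kernel
theorem cV_2639 : allRange (fun x => forceN T.chkV x) 2639 29 = true := by decide +kernel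
theorem cV_2668 : allRange (fun x => forceN T.chkV x) 2668 29 = true := by decide +kernel
theorem cV_2697 : allRange (fun x => forceN T.chkV x) 2697 29 = true := by decide +kernel
theorem cV_2726 : allRange (fun x => forceN T.chkV x) 2726 29 = true := by decide +kernel
theorem cV_2755 : allRange (fun x => forceN T.chkV x) 2755 29 = true := by decide +kernel
theorem cV_2784 : allRange (fun x => forceN T.chkV x) 2784 29 = true := by decide +kernel
theorem cV_2813 : allRange (fun x => forceN T.chkV x) 2813 29 = true := by decide +kernel
theorem cV_2842 : allRange (fun x => forceN T.chkV x) 2842 29 = true := by decide +kernel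
theorem cV_2871 : allRange (fun x => forceN T.chkV x) 2871 29 = true := by decide +kernel

end Cfsg.Agent.Lib.Helper56.RSz
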