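import Mathlib
import Cfsg.Agent.Lib.Helper56.TC
import Cfsg.Agent.Lib.Helper56.RSz.D
set_option autoImplicit false
set_option maxRecDepth 1000000

namespace Cfsg.Agent.Lib.Helper56.RSz

open Cfsg.Agent.Lib.Helper56.TC Cfsg.Agent.Lib.Helper56.TC.Tabs

theorem cV_2900 : allRange (fun x => forceN T.chkV x) 2900 29 = true := by decide +kernel
theorem cV_2929 : allRange (fun x => forceN T.chkV x) 2929 29 = true := by decide +kernel
theorem cV_2958 : allRange (fun x => forceN T.chkV x) 2958 29 = true := by decide +kernel
theorem cV_2987 : allRange (fun x => forceN T.chkV x) 2987 29 = true := by decide +kernel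
theorem cV_3016 : allRange (fun x => forceN T.chkV x) 3016 29 = true := by decide +kernel
theorem cV_3045 : allRange (fun x => forceN T.chkV x) 3045 29 = true := by decide +kernel
theorem cV_3074 : allRange (fun x => forceN T.chkV x) 3074 29 = true := by decide +kernel
theorem cV_3103 : allRange (fun x => forceN T.chkV x) 3103 29 = true := by decide +kernel
theorem cV_3132 : allRange (fun x => forceN T.chkV x) 3132 29 = true := by decide +kernel
theorem cV_3161 : allRange (fun x => forceN T.chkV x) 3161 29 = true := by decide +kernel
theorem cV_3190 : allRange (fun x => forceN T.chkV x) 3190 29 = true := by decide +kernel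
theorem cV_3219 : allRange (fun x => forceN T.chkV x) 3219 29 = true := by decide +kernel

end Cfsg.Agent.Lib.Helper56.RSz
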