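import Mathlib
import Cfsg.Agent.Lib.Helper56.TC
import Cfsg.Agent.Lib.Helper56.RSz.D
set_option autoImplicit false
set_option maxRecDepth 1000000

namespace Cfsg.Agent.Lib.Helper56.RSz

open Cfsg.Agent.Lib.Helper56.TC Cfsg.Agent.Lib.Helper56.TC.Tabs

theorem cV_3248 : allRange (fun x => forceN T.chkV x) 3248 29 = true := by decide +kernel
theorem cV_3277 : allRange (fun x => forceN T.chkV x) 3277 29 = true := by decide +kernel
theorem cV_3306 : allRange (fun x => forceN T.chkV x) 3306 29 = true := by decide +kernel
theorem cV_3335 : allRange (fun x => forceN T.chkV x) 3335 29 = true := by decide +kernel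
theorem cV_3364 : allRange (fun x => forceN T.chkV x) 3364 29 = true := by decide +kernel
theorem cV_3393 : allRange (fun x => forceN T.chkV x) 3393 29 = true := by decide +kernel
theorem cV_3422 : allRange (fun x => forceN T.chkV x) 3422 29 = true := by decide +kernel
theorem cV_3451 : allRange (fun x => forceN T.chkV x) 3451 29 = true := by decide +kernel
theorem cV_3480 : allRange (fun x => forceN T.chkV x) 3480 29 = true := by decide +kernel
theorem cV_3509 : allRange (fun x => forceN T.chkV x) 3509 29 = true := by decide +kernel
theorem cV_3538 : allRange (fun x => forceN T.chkV x) 3538 29 = true := by decide +kernel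
theorem cV_3567 : allRange (fun x => forceN T.chkV x) 3567 29 = true := by decide +kernel

end Cfsg.Agent.Lib.Helper56.RSz
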