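import Mathlib
import Cfsg.Agent.Lib.Helper56.TC
import Cfsg.Agent.Lib.Helper56.RSz.D
set_option autoImplicit false
set_option maxRecDepth 1000000

namespace Cfsg.Agent.Lib.Helper56.RSz

open Cfsg.Agent.Lib.Helper56.TC Cfsg.Agent.Lib.Helper56.TC.Tabs

theorem cV_3596 : allRange (fun x => forceN T.chkV x) 3596 29 = true := by decide +kernel
theorem cV_3625 : allRange (fun x => forceN T.chkV x) 3625 29 = true := by decide +kernel
theorem cV_3654 : allRange (fun x => forceN T.chkV x) 3654 29 = true := by decide +kernel
theorem cV_3683 : allRange (fun x => forceN T.chkV x) 3683 29 = true := by decide +kernel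
theorem cV_3712 : allRange (fun x => forceN T.chkV x) 3712 29 = true := by decide +kernel
theorem cV_3741 : allRange (fun x => forceN T.chkV x) 3741 29 = true := by decide +kernel
theorem cV_3770 : allRange (fun x => forceN T.chkV x) 3770 29 = true := by decide +kernel
theorem cV_3799 : allRange (fun x => forceN T.chkV x) 3799 29 = true := by decide +kernel
theorem cV_3828 : allRange (fun x => forceN T.chkV x) 3828 29 = true := by decide +kernel
theorem cV_3857 : allRange (fun x => forceN T.chkV x) 3857 29 = true := by decide +kernel
theorem cV_3886 : allRange (fun x => forceN T.chkV x) 3886 29 = true := by decide +kernel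
theorem cV_3915 : allRange (fun x => forceN T.chkV x) 3915 29 = true := by decide +kernel

end Cfsg.Agent.Lib.Helper56.RSz
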