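import Mathlib
import Cfsg.Agent.Lib.Helper56.TC
import Cfsg.Agent.Lib.Helper56.RSz.D
set_option autoImplicit false
set_option maxRecDepth 1000000

namespace Cfsg.Agent.Lib.Helper56.RSz

open Cfsg.Agent.Lib.Helper56.TC Cfsg.Agent.Lib.Helper56.TC.Tabs

theorem cV_3944 : allRange (fun x => forceN T.chkV x) 3944 29 = true := by decide +kernel
theorem cV_3973 : allRange (fun x => forceN T.chkV x) 3973 29 = true := by decide +kernel
theorem cV_4002 : allRange (fun x => forceN T.chkV x) 4002 29 = true := by decide +kernel
theorem cV_4031 : allRange (fun x => forceN T.chkV x) 4031 29 = true := by decide +kernel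
theorem cV_4060 : allRange (fun x => forceN T.chkV x) 4060 29 = true := by decide +kernel
theorem cV_4089 : allRange (fun x => forceN T.chkV x) 4089 29 = true := by decide +kernel
theorem cV_4118 : allRange (fun x => forceN T.chkV x) 4118 29 = true := by decide +kernel
theorem cV_4147 : allRange (fun x => forceN T.chkV x) 4147 29 = true := by decide +kernel
theorem cV_4176 : allRange (fun x => forceN T.chkV x) 4176 29 = true := by decide +kernel
theorem cV_4205 : allRange (fun x => forceN T.chkV x) 4205 29 = true := by decide +kernel
theorem cV_4234 : allRange (fun x => forceN T.chkV x) 4234 29 = true := by decide +kernel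
theorem cV_4263 : allRange (fun x => forceN T.chkV x) 4263 29 = true := by decide +kernel

end Cfsg.Agent.Lib.Helper56.RSz
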