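import Mathlib
import Cfsg.Agent.Lib.Helper56.TC
import Cfsg.Agent.Lib.Helper56.RSz.D
set_option autoImplicit false
set_option maxRecDepth 1000000

namespace Cfsg.Agent.Lib.Helper56.RSz

open Cfsg.Agent.Lib.Helper56.TC Cfsg.Agent.Lib.Helper56.TC.Tabs

theorem cV_4292 : allRange (fun x => forceN T.chkV x) 4292 29 = true := by decide +kernel
theorem cV_4321 : allRange (fun x => forceN T.chkV x) 4321 29 = true := by decide +kernel
theorem cV_4350 : allRange (fun x => forceN T.chkV x) 4350 29 = true := by decide +kernel
theorem cV_4379 : allRange (fun x => forceN T.chkV x) 4379 29 = true := by decide +kernel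
theorem cV_4408 : allRange (fun x => forceN T.chkV x) 4408 29 = true := by decide +kernel
theorem cV_4437 : allRange (fun x => forceN T.chkV x) 4437 29 = true := by decide +kernel
theorem cV_4466 : allRange (fun x => forceN T.chkV x) 4466 29 = true := by decide +kernel
theorem cV_4495 : allRange (fun x => forceN T.chkV x) 4495 29 = true := by decide +kernel
theorem cV_4524 : allRange (fun x => forceN T.chkV x) 4524 29 = true := by decide +kernel
theorem cV_4553 : allRange (fun x => forceN T.chkV x) 4553 29 = true := by decide +kernel
theorem cV_4582 : allRange (fun x => forceN T.chkV x) 4582 29 = true := by decide +kernel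
theorem cV_4611 : allRange (fun x => forceN T.chkV x) 4611 29 = true := by decide +kernel

end Cfsg.Agent.Lib.Helper56.RSz
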