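import Mathlib
import Cfsg.Agent.Lib.Helper56.TC
import Cfsg.Agent.Lib.Helper56.RSz.D
set_option autoImplicit false
set_option maxRecDepth 1000000

namespace Cfsg.Agent.Lib.Helper56.RSz

open Cfsg.Agent.Lib.Helper56.TC Cfsg.Agent.Lib.Helper56.TC.Tabs

theorem cV_4640 : allRange (fun x => forceN T.chkV x) 4640 29 = true := by decide +kernel
theorem cV_4669 : allRange (fun x => forceN T.chkV x) 4669 29 = true := by decide +kernel
theorem cV_4698 : allRange (fun x => forceN T.chkV x) 4698 29 = true := by decide +kernel
theorem cV_4727 : allRange (fun x => forceN T.chkV x) 4727 29 = true := by decide +kernel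
theorem cV_4756 : allRange (fun x => forceN T.chkV x) 4756 29 = true := by decide +kernel
theorem cV_4785 : allRange (fun x => forceN T.chkV x) 4785 29 = true := by decide +kernel
theorem cV_4814 : allRange (fun x => forceN T.chkV x) 4814 29 = true := by decide +kernel
theorem cV_4843 : allRange (fun x => forceN T.chkV x) 4843 29 = true := by decide +kernel
theorem cV_4872 : allRange (fun x => forceN T.chkV x) 4872 29 = true := by decide +kernel
theorem cV_4901 : allRange (fun x => forceN T.chkV x) 4901 29 = true := by decide +kernel
theorem cV_4930 : allRange (fun x => forceN T.chkV x) 4930 29 = true := by decide +kernel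
theorem cV_4959 : allRange (fun x => forceN T.chkV x) 4959 29 = true := by decide +kernel

end Cfsg.Agent.Lib.Helper56.RSz
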