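import Mathlib
import Cfsg.Agent.Lib.Helper56.TC
import Cfsg.Agent.Lib.Helper56.RSz.D
set_option autoImplicit false
set_option maxRecDepth 1000000

namespace Cfsg.Agent.Lib.Helper56.RSz

open Cfsg.Agent.Lib.Helper56.TC Cfsg.Agent.Lib.Helper56.TC.Tabs

theorem cN_20884 : allRange (fun x => forceN T.chkName x) 20884 422 = true := by decide +kernel
theorem cN_21306 : allRange (fun x => forceN T.chkName x) 21306 428 = true := by decide +kernel
theorem cN_21734 : allRange (fun x => forceN T.chkName x) 21734 446 = true := by decide +kernel
theorem cN_22180 : allRange (fun x => forceN T.chkName x) 22180 437 = true := by decide +kernel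
theorem cN_22617 : allRange (fun x => forceN T.chkName x) 22617 437 = true := by decide +kernel
theorem cN_23054 : allRange (fun x => forceN T.chkName x) 23054 453 = true := by decide +kernel
theorem cN_23507 : allRange (fun x => forceN T.chkName x) 23507 458 = true := by decide +kernel
theorem cN_23965 : allRange (fun x => forceN T.chkName x) 23965 451 = true := by decide +kernel
theorem cN_24416 : allRange (fun x => forceN T.chkName x) 24416 474 = true := by decide +kernel
theorem cN_24890 : allRange (fun x => forceN T.chkName x) 24890 451 = true := by decide +kernel
theorem cN_25341 : allRange (fun x => forceN T.chkName x) 25341 445 = true := by decide +kernel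
theorem cN_25786 : allRange (fun x => forceN T.chkName x) 25786 470 = true := by decide +kernel

end Cfsg.Agent.Lib.Helper56.RSz
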