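import Mathlib
import Cfsg.Agent.Lib.Helper56.TC
import Cfsg.Agent.Lib.Helper56.RSz.D
set_option autoImplicit false
set_option maxRecDepth 1000000

namespace Cfsg.Agent.Lib.Helper56.RSz

open Cfsg.Agent.Lib.Helper56.TC Cfsg.Agent.Lib.Helper56.TC.Tabs

theorem cV_4988 : allRange (fun x => forceN T.chkV x) 4988 29 = true := by decide +kernel
theorem cV_5017 : allRange (fun x => forceN T.chkV x) 5017 29 = true := by decide +kernel
theorem cV_5046 : allRange (fun x => forceN T.chkV x) 5046 29 = true := by decide +kernel
theorem cV_5075 : allRange (fun x => forceN T.chkV x) 5075 29 = true := by decide +kernel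
theorem cV_5104 : allRange (fun x => forceN T.chkV x) 5104 29 = true := by decide +kernel
theorem cV_5133 : allRange (fun x => forceN T.chkV x) 5133 29 = true := by decide +kernel
theorem cV_5162 : allRange (fun x => forceN T.chkV x) 5162 29 = true := by decide +kernel
theorem cV_5191 : allRange (fun x => forceN T.chkV x) 5191 29 = true := by decide +kernel
theorem cV_5220 : allRange (fun x => forceN T.chkV x) 5220 29 = true := by decide +kernel
theorem cV_5249 : allRange (fun x => forceN T.chkV x) 5249 29 = true := by decide +kernel
theorem cV_5278 : allRange (fun x => forceN T.chkV x) 5278 29 = true := by decide +kernel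
theorem cV_5307 : allRange (fun x => forceN T.chkV x) 5307 29 = true := by decide +kernel

end Cfsg.Agent.Lib.Helper56.RSz
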