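import Mathlib
import Cfsg.Agent.Lib.Helper56.TC
import Cfsg.Agent.Lib.Helper56.RSz.D
set_option autoImplicit false
set_option maxRecDepth 1000000

namespace Cfsg.Agent.Lib.Helper56.RSz

open Cfsg.Agent.Lib.Helper56.TC Cfsg.Agent.Lib.Helper56.TC.Tabs

theorem cV_5336 : allRange (fun x => forceN T.chkV x) 5336 29 = true := by decide +kernel
theorem cV_5365 : allRange (fun x => forceN T.chkV x) 5365 29 = true := by decide +kernel
theorem cV_5394 : allRange (fun x => forceN T.chkV x) 5394 29 = true := by decide +kernel
theorem cV_5423 : allRange (fun x => forceN T.chkV x) 5423 29 = true := by decide +kernel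
theorem cV_5452 : allRange (fun x => forceN T.chkV x) 5452 29 = true := by decide +kernel
theorem cV_5481 : allRange (fun x => forceN T.chkV x) 5481 29 = true := by decide +kernel
theorem cV_5510 : allRange (fun x => forceN T.chkV x) 5510 29 = true := by decide +kernel
theorem cV_5539 : allRange (fun x => forceN T.chkV x) 5539 29 = true := by decide +kernel
theorem cV_5568 : allRange (fun x => forceN T.chkV x) 5568 29 = true := by decide +kernel
theorem cV_5597 : allRange (fun x => forceN T.chkV x) 5597 29 = true := by decide +kernel
theorem cV_5626 : allRange (fun x => forceN T.chkV x) 5626 29 = true := by decide +kernel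
theorem cV_5655 : allRange (fun x => forceN T.chkV x) 5655 29 = true := by decide +kernel

end Cfsg.Agent.Lib.Helper56.RSz
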