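import Mathlib
import Cfsg.Agent.Lib.Helper56.TC
import Cfsg.Agent.Lib.Helper56.RSz.D
set_option autoImplicit false
set_option maxRecDepth 1000000

namespace Cfsg.Agent.Lib.Helper56.RSz

open Cfsg.Agent.Lib.Helper56.TC Cfsg.Agent.Lib.Helper56.TC.Tabs

theorem cV_5684 : allRange (fun x => forceN T.chkV x) 5684 29 = true := by decide +kernel
theorem cV_5713 : allRange (fun x => forceN T.chkV x) 5713 29 = true := by decide +kernel
theorem cV_5742 : allRange (fun x => forceN T.chkV x) 5742 29 = true := by decide +kernel
theorem cV_5771 : allRange (fun x => forceN T.chkV x) 5771 29 = true := by decide +kernel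
theorem cV_5800 : allRange (fun x => forceN T.chkV x) 5800 29 = true := by decide +kernel
theorem cV_5829 : allRange (fun x => forceN T.chkV x) 5829 29 = true := by decide +kernel
theorem cV_5858 : allRange (fun x => forceN T.chkV x) 5858 29 = true := by decide +kernel
theorem cV_5887 : allRange (fun x => forceN T.chkV x) 5887 29 = true := by decide +kernel
theorem cV_5916 : allRange (fun x => forceN T.chkV x) 5916 29 = true := by decide +kernel
theorem cV_5945 : allRange (fun x => forceN T.chkV x) 5945 29 = true := by decide +kernel
theorem cV_5974 : allRange (fun x => forceN T.chkV x) 5974 29 = true := by decide +kernel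
theorem cV_6003 : allRange (fun x => forceN T.chkV x) 6003 29 = true := by decide +kernel

end Cfsg.Agent.Lib.Helper56.RSz
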