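import Mathlib
import Cfsg.Agent.Lib.Helper56.TC
import Cfsg.Agent.Lib.Helper56.RSz.D
set_option autoImplicit false
set_option maxRecDepth 1000000

namespace Cfsg.Agent.Lib.Helper56.RSz

open Cfsg.Agent.Lib.Helper56.TC Cfsg.Agent.Lib.Helper56.TC.Tabs

theorem cV_6032 : allRange (fun x => forceN T.chkV x) 6032 29 = true := by decide +kernel
theorem cV_6061 : allRange (fun x => forceN T.chkV x) 6061 29 = true := by decide +kernel
theorem cV_6090 : allRange (fun x => forceN T.chkV x) 6090 29 = true := by decide +kernel
theorem cV_6119 : allRange (fun x => forceN T.chkV x) 6119 29 = true := by decide +kernel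
theorem cV_6148 : allRange (fun x => forceN T.chkV x) 6148 29 = true := by decide +kernel
theorem cV_6177 : allRange (fun x => forceN T.chkV x) 6177 29 = true := by decide +kernel
theorem cV_6206 : allRange (fun x => forceN T.chkV x) 6206 29 = true := by decide +kernel
theorem cV_6235 : allRange (fun x => forceN T.chkV x) 6235 29 = true := by decide +kernel
theorem cV_6264 : allRange (fun x => forceN T.chkV x) 6264 29 = true := by decide +kernel
theorem cV_6293 : allRange (fun x => forceN T.chkV x) 6293 29 = true := by decide +kernel
theorem cV_6322 : allRange (fun x => forceN T.chkV x) 6322 29 = true := by decide +kernel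
theorem cV_6351 : allRange (fun x => forceN T.chkV x) 6351 29 = true := by decide +kernel

end Cfsg.Agent.Lib.Helper56.RSz
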