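import Mathlib
import Cfsg.Agent.Lib.Helper56.TC
import Cfsg.Agent.Lib.Helper56.RSz.D
set_option autoImplicit false
set_option maxRecDepth 1000000

namespace Cfsg.Agent.Lib.Helper56.RSz

open Cfsg.Agent.Lib.Helper56.TC Cfsg.Agent.Lib.Helper56.TC.Tabs

theorem cV_6380 : allRange (fun x => forceN T.chkV x) 6380 29 = true := by decide +kernel
theorem cV_6409 : allRange (fun x => forceN T.chkV x) 6409 29 = true := by decide +kernel
theorem cV_6438 : allRange (fun x => forceN T.chkV x) 6438 29 = true := by decide +kernel
theorem cV_6467 : allRange (fun x => forceN T.chkV x) 6467 29 = true := by decide +kernel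
theorem cV_6496 : allRange (fun x => forceN T.chkV x) 6496 29 = true := by decide +kernel
theorem cV_6525 : allRange (fun x => forceN T.chkV x) 6525 29 = true := by decide +kernel
theorem cV_6554 : allRange (fun x => forceN T.chkV x) 6554 29 = true := by decide +kernel
theorem cV_6583 : allRange (fun x => forceN T.chkV x) 6583 29 = true := by decide +kernel
theorem cV_6612 : allRange (fun x => forceN T.chkV x) 6612 29 = true := by decide +kernel
theorem cV_6641 : allRange (fun x => forceN T.chkV x) 6641 29 = true := by decide +kernel
theorem cV_6670 : allRange (fun x => forceN T.chkV x) 6670 29 = true := by decide +kernel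
theorem cV_6699 : allRange (fun x => forceN T.chkV x) 6699 29 = true := by decide +kernel

end Cfsg.Agent.Lib.Helper56.RSz
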