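import Mathlib
import Cfsg.Agent.Lib.Helper56.TC
import Cfsg.Agent.Lib.Helper56.RSz.D
set_option autoImplicit false
set_option maxRecDepth 1000000

namespace Cfsg.Agent.Lib.Helper56.RSz

open Cfsg.Agent.Lib.Helper56.TC Cfsg.Agent.Lib.Helper56.TC.Tabs

theorem cV_6728 : allRange (fun x => forceN T.chkV x) 6728 29 = true := by decide +kernel
theorem cV_6757 : allRange (fun x => forceN T.chkV x) 6757 29 = true := by decide +kernel
theorem cV_6786 : allRange (fun x => forceN T.chkV x) 6786 29 = true := by decide +kernel
theorem cV_6815 : allRange (fun x => forceN T.chkV x) 6815 29 = true := by decide +kernel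
theorem cV_6844 : allRange (fun x => forceN T.chkV x) 6844 29 = true := by decide +kernel
theorem cV_6873 : allRange (fun x => forceN T.chkV x) 6873 29 = true := by decide +kernel
theorem cV_6902 : allRange (fun x => forceN T.chkV x) 6902 29 = true := by decide +kernel
theorem cV_6931 : allRange (fun x => forceN T.chkV x) 6931 29 = true := by decide +kernel
theorem cV_6960 : allRange (fun x => forceN T.chkV x) 6960 29 = true := by decide +kernel
theorem cV_6989 : allRange (fun x => forceN T.chkV x) 6989 29 = true := by decide +kernel
theorem cV_7018 : allRange (fun x => forceN T.chkV x) 7018 29 = true := by decide +kernel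
theorem cV_7047 : allRange (fun x => forceN T.chkV x) 7047 29 = true := by decide +kernel

end Cfsg.Agent.Lib.Helper56.RSz
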