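import Mathlib
import Cfsg.Agent.Lib.Helper56.TC
import Cfsg.Agent.Lib.Helper56.RSz.D
set_option autoImplicit false
set_option maxRecDepth 1000000

namespace Cfsg.Agent.Lib.Helper56.RSz

open Cfsg.Agent.Lib.Helper56.TC Cfsg.Agent.Lib.Helper56.TC.Tabs

theorem cV_7076 : allRange (fun x => forceN T.chkV x) 7076 29 = true := by decide +kernel
theorem cV_7105 : allRange (fun x => forceN T.chkV x) 7105 29 = true := by decide +kernel
theorem cV_7134 : allRange (fun x => forceN T.chkV x) 7134 29 = true := by decide +kernel
theorem cV_7163 : allRange (fun x => forceN T.chkV x) 7163 29 = true := by decide +kernel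
theorem cV_7192 : allRange (fun x => forceN T.chkV x) 7192 29 = true := by decide +kernel
theorem cV_7221 : allRange (fun x => forceN T.chkV x) 7221 29 = true := by decide +kernel
theorem cV_7250 : allRange (fun x => forceN T.chkV x) 7250 29 = true := by decide +kernel
theorem cV_7279 : allRange (fun x => forceN T.chkV x) 7279 29 = true := by decide +kernel
theorem cV_7308 : allRange (fun x => forceN T.chkV x) 7308 29 = true := by decide +kernel
theorem cV_7337 : allRange (fun x => forceN T.chkV x) 7337 29 = true := by decide +kernel
theorem cV_7366 : allRange (fun x => forceN T.chkV x) 7366 29 = true := by decide +kernel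
theorem cV_7395 : allRange (fun x => forceN T.chkV x) 7395 29 = true := by decide +kernel

end Cfsg.Agent.Lib.Helper56.RSz
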