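import Mathlib
import Cfsg.Agent.Lib.Helper56.TC
import Cfsg.Agent.Lib.Helper56.RSz.D
set_option autoImplicit false
set_option maxRecDepth 1000000

namespace Cfsg.Agent.Lib.Helper56.RSz

open Cfsg.Agent.Lib.Helper56.TC Cfsg.Agent.Lib.Helper56.TC.Tabs

theorem cV_7424 : allRange (fun x => forceN T.chkV x) 7424 29 = true := by decide +kernel
theorem cV_7453 : allRange (fun x => forceN T.chkV x) 7453 29 = true := by decide +kernel
theorem cV_7482 : allRange (fun x => forceN T.chkV x) 7482 29 = true := by decide +kernel
theorem cV_7511 : allRange (fun x => forceN T.chkV x) 7511 29 = true := by decide +kernel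
theorem cV_7540 : allRange (fun x => forceN T.chkV x) 7540 29 = true := by decide +kernel
theorem cV_7569 : allRange (fun x => forceN T.chkV x) 7569 29 = true := by decide +kernel
theorem cV_7598 : allRange (fun x => forceN T.chkV x) 7598 29 = true := by decide +kernel
theorem cV_7627 : allRange (fun x => forceN T.chkV x) 7627 29 = true := by decide +kernel
theorem cV_7656 : allRange (fun x => forceN T.chkV x) 7656 29 = true := by decide +kernel
theorem cV_7685 : allRange (fun x => forceN T.chkV x) 7685 29 = true := by decide +kernel
theorem cV_7714 : allRange (fun x => forceN T.chkV x) 7714 29 = true := by decide +kernel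
theorem cV_7743 : allRange (fun x => forceN T.chkV x) 7743 29 = true := by decide +kernel

end Cfsg.Agent.Lib.Helper56.RSz
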