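import Mathlib
import Cfsg.Agent.Lib.Helper56.TC
import Cfsg.Agent.Lib.Helper56.RSz.D
set_option autoImplicit false
set_option maxRecDepth 1000000

namespace Cfsg.Agent.Lib.Helper56.RSz

open Cfsg.Agent.Lib.Helper56.TC Cfsg.Agent.Lib.Helper56.TC.Tabs

theorem cV_7772 : allRange (fun x => forceN T.chkV x) 7772 29 = true := by decide +kernel
theorem cV_7801 : allRange (fun x => forceN T.chkV x) 7801 29 = true := by decide +kernel
theorem cV_7830 : allRange (fun x => forceN T.chkV x) 7830 29 = true := by decide +kernel
theorem cV_7859 : allRange (fun x => forceN T.chkV x) 7859 29 = true := by decide +kernel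
theorem cV_7888 : allRange (fun x => forceN T.chkV x) 7888 29 = true := by decide +kernel
theorem cV_7917 : allRange (fun x => forceN T.chkV x) 7917 29 = true := by decide +kernel
theorem cV_7946 : allRange (fun x => forceN T.chkV x) 7946 29 = true := by decide +kernel
theorem cV_7975 : allRange (fun x => forceN T.chkV x) 7975 29 = true := by decide +kernel
theorem cV_8004 : allRange (fun x => forceN T.chkV x) 8004 29 = true := by decide +kernel
theorem cV_8033 : allRange (fun x => forceN T.chkV x) 8033 29 = true := by decide +kernel
theorem cV_8062 : allRange (fun x => forceN T.chkV x) 8062 29 = true := by decide +kernel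
theorem cV_8091 : allRange (fun x => forceN T.chkV x) 8091 29 = true := by decide +kernel

end Cfsg.Agent.Lib.Helper56.RSz
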