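import Mathlib
import Cfsg.Agent.Lib.Helper56.TC
import Cfsg.Agent.Lib.Helper56.RSz.D
set_option autoImplicit false
set_option maxRecDepth 1000000

namespace Cfsg.Agent.Lib.Helper56.RSz

open Cfsg.Agent.Lib.Helper56.TC Cfsg.Agent.Lib.Helper56.TC.Tabs

theorem cV_8120 : allRange (fun x => forceN T.chkV x) 8120 29 = true := by decide +kernel
theorem cV_8149 : allRange (fun x => forceN T.chkV x) 8149 29 = true := by decide +kernel
theorem cV_8178 : allRange (fun x => forceN T.chkV x) 8178 29 = true := by decide +kernel
theorem cV_8207 : allRange (fun x => forceN T.chkV x) 8207 29 = true := by decide +kernel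
theorem cV_8236 : allRange (fun x => forceN T.chkV x) 8236 29 = true := by decide +kernel
theorem cV_8265 : allRange (fun x => forceN T.chkV x) 8265 29 = true := by decide +kernel
theorem cV_8294 : allRange (fun x => forceN T.chkV x) 8294 29 = true := by decide +kernel
theorem cV_8323 : allRange (fun x => forceN T.chkV x) 8323 29 = true := by decide +kernel
theorem cV_8352 : allRange (fun x => forceN T.chkV x) 8352 29 = true := by decide +kernel
theorem cV_8381 : allRange (fun x => forceN T.chkV x) 8381 29 = true := by decide +kernel
theorem cV_8410 : allRange (fun x => forceN T.chkV x) 8410 29 = true := by decide +kernel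
theorem cV_8439 : allRange (fun x => forceN T.chkV x) 8439 29 = true := by decide +kernel

end Cfsg.Agent.Lib.Helper56.RSz
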