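import Mathlib
import Cfsg.Agent.Lib.Helper56.TC
import Cfsg.Agent.Lib.Helper56.RSz.D
set_option autoImplicit false
set_option maxRecDepth 1000000

namespace Cfsg.Agent.Lib.Helper56.RSz

open Cfsg.Agent.Lib.Helper56.TC Cfsg.Agent.Lib.Helper56.TC.Tabs

theorem cN_26256 : allRange (fun x => forceN T.chkName x) 26256 450 = true := by decide +kernel
theorem cN_26706 : allRange (fun x => forceN T.chkName x) 26706 394 = true := by decide +kernel
theorem cN_27100 : allRange (fun x => forceN T.chkName x) 27100 456 = true := by decide +kernel
theorem cN_27556 : allRange (fun x => forceN T.chkName x) 27556 448 = true := by decide +kernel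
theorem cN_28004 : allRange (fun x => forceN T.chkName x) 28004 458 = true := by decide +kernel
theorem cN_28462 : allRange (fun x => forceN T.chkName x) 28462 401 = true := by decide +kernel
theorem cN_28863 : allRange (fun x => forceN T.chkName x) 28863 397 = true := by decide +kernel
theorem cN_29260 : allRange (fun x => forceN T.chkName x) 29260 425 = true := by decide +kernel
theorem cN_29685 : allRange (fun x => forceN T.chkName x) 29685 393 = true := by decide +kernel
theorem cN_30078 : allRange (fun x => forceN T.chkName x) 30078 377 = true := by decide +kernel
theorem cN_30455 : allRange (fun x => forceN T.chkName x) 30455 371 = true := by decide +kernel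
theorem cN_30826 : allRange (fun x => forceN T.chkName x) 30826 388 = true := by decide +kernel

end Cfsg.Agent.Lib.Helper56.RSz
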