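import Mathlib
import Cfsg.Agent.Lib.Helper56.TC
import Cfsg.Agent.Lib.Helper56.RSz.D
set_option autoImplicit false
set_option maxRecDepth 1000000

namespace Cfsg.Agent.Lib.Helper56.RSz

open Cfsg.Agent.Lib.Helper56.TC Cfsg.Agent.Lib.Helper56.TC.Tabs

theorem cV_8468 : allRange (fun x => forceN T.chkV x) 8468 29 = true := by decide +kernel
theorem cV_8497 : allRange (fun x => forceN T.chkV x) 8497 29 = true := by decide +kernel
theorem cV_8526 : allRange (fun x => forceN T.chkV x) 8526 29 = true := by decide +kernel
theorem cV_8555 : allRange (fun x => forceN T.chkV x) 8555 29 = true := by decide +kernel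
theorem cV_8584 : allRange (fun x => forceN T.chkV x) 8584 29 = true := by decide +kernel
theorem cV_8613 : allRange (fun x => forceN T.chkV x) 8613 29 = true := by decide +kernel
theorem cV_8642 : allRange (fun x => forceN T.chkV x) 8642 29 = true := by decide +kernel
theorem cV_8671 : allRange (fun x => forceN T.chkV x) 8671 29 = true := by decide +kernel
theorem cV_8700 : allRange (fun x => forceN T.chkV x) 8700 29 = true := by decide +kernel
theorem cV_8729 : allRange (fun x => forceN T.chkV x) 8729 29 = true := by decide +kernel
theorem cV_8758 : allRange (fun x => forceN T.chkV x) 8758 29 = true := by decide +kernel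
theorem cV_8787 : allRange (fun x => forceN T.chkV x) 8787 29 = true := by decide +kernel

end Cfsg.Agent.Lib.Helper56.RSz
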