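import Mathlib
import Cfsg.Agent.Lib.Helper56.TC
import Cfsg.Agent.Lib.Helper56.RSz.D
set_option autoImplicit false
set_option maxRecDepth 1000000

namespace Cfsg.Agent.Lib.Helper56.RSz

open Cfsg.Agent.Lib.Helper56.TC Cfsg.Agent.Lib.Helper56.TC.Tabs

theorem cV_8816 : allRange (fun x => forceN T.chkV x) 8816 29 = true := by decide +kernel
theorem cV_8845 : allRange (fun x => forceN T.chkV x) 8845 29 = true := by decide +kernel
theorem cV_8874 : allRange (fun x => forceN T.chkV x) 8874 29 = true := by decide +kernel
theorem cV_8903 : allRange (fun x => forceN T.chkV x) 8903 29 = true := by decide +kernel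
theorem cV_8932 : allRange (fun x => forceN T.chkV x) 8932 28 = true := by decide +kernel

end Cfsg.Agent.Lib.Helper56.RSz
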