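import Mathlib
import Cfsg.Agent.Lib.Helper56.TC
import Cfsg.Agent.Lib.Helper56.RSz.D
set_option autoImplicit false
set_option maxRecDepth 1000000

namespace Cfsg.Agent.Lib.Helper56.RSz

open Cfsg.Agent.Lib.Helper56.TC Cfsg.Agent.Lib.Helper56.TC.Tabs

theorem cN_31214 : allRange (fun x => forceN T.chkName x) 31214 372 = true := by decide +kernel
theorem cN_31586 : allRange (fun x => forceN T.chkName x) 31586 404 = true := by decide +kernel
theorem cN_31990 : allRange (fun x => forceN T.chkName x) 31990 403 = true := by decide +kernel
theorem cN_32393 : allRange (fun x => forceN T.chkName x) 32393 363 = true := by decide +kernel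
theorem cN_32756 : allRange (fun x => forceN T.chkName x) 32756 390 = true := by decide +kernel
theorem cN_33146 : allRange (fun x => forceN T.chkName x) 33146 394 = true := by decide +kernel
theorem cN_33540 : allRange (fun x => forceN T.chkName x) 33540 363 = true := by decide +kernel
theorem cN_33903 : allRange (fun x => forceN T.chkName x) 33903 378 = true := by decide +kernel
theorem cN_34281 : allRange (fun x => forceN T.chkName x) 34281 376 = true := by decide +kernel
theorem cN_34657 : allRange (fun x => forceN T.chkName x) 34657 405 = true := by decide +kernel
theorem cN_35062 : allRange (fun x => forceN T.chkName x) 35062 383 = true := by decide +kernel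
theorem cN_35445 : allRange (fun x => forceN T.chkName x) 35445 382 = true := by decide +kernel

end Cfsg.Agent.Lib.Helper56.RSz
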