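import Mathlib
import Cfsg.Agent.Lib.Helper56.TC
import Cfsg.Agent.Lib.Helper56.RSz.D
set_option autoImplicit false
set_option maxRecDepth 1000000

namespace Cfsg.Agent.Lib.Helper56.RSz

open Cfsg.Agent.Lib.Helper56.TC Cfsg.Agent.Lib.Helper56.TC.Tabs

theorem cN_35827 : allRange (fun x => forceN T.chkName x) 35827 392 = true := by decide +kernel
theorem cN_36219 : allRange (fun x => forceN T.chkName x) 36219 431 = true := by decide +kernel
theorem cN_36650 : allRange (fun x => forceN T.chkName x) 36650 484 = true := by decide +kernel
theorem cN_37134 : allRange (fun x => forceN T.chkName x) 37134 469 = true := by decide +kernel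
theorem cN_37603 : allRange (fun x => forceN T.chkName x) 37603 492 = true := by decide +kernel
theorem cN_38095 : allRange (fun x => forceN T.chkName x) 38095 485 = true := by decide +kernel
theorem cN_38580 : allRange (fun x => forceN T.chkName x) 38580 477 = true := by decide +kernel
theorem cN_39057 : allRange (fun x => forceN T.chkName x) 39057 460 = true := by decide +kernel
theorem cN_39517 : allRange (fun x => forceN T.chkName x) 39517 483 = true := by decide +kernel
theorem cN_40000 : allRange (fun x => forceN T.chkName x) 40000 488 = true := by decide +kernel
theorem cN_40488 : allRange (fun x => forceN T.chkName x) 40488 488 = true := by decide +kernel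
theorem cN_40976 : allRange (fun x => forceN T.chkName x) 40976 508 = true := by decide +kernel

end Cfsg.Agent.Lib.Helper56.RSz
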