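import Mathlib
import Cfsg.Agent.Lib.Helper56.TC
import Cfsg.Agent.Lib.Helper56.RSz.D
set_option autoImplicit false
set_option maxRecDepth 1000000

namespace Cfsg.Agent.Lib.Helper56.RSz

open Cfsg.Agent.Lib.Helper56.TC Cfsg.Agent.Lib.Helper56.TC.Tabs

theorem cN_41484 : allRange (fun x => forceN T.chkName x) 41484 516 = true := by decide +kernel
theorem cN_42000 : allRange (fun x => forceN T.chkName x) 42000 503 = true := by decide +kernel
theorem cN_42503 : allRange (fun x => forceN T.chkName x) 42503 512 = true := by decide +kernel
theorem cN_43015 : allRange (fun x => forceN T.chkName x) 43015 486 = true := by decide +kernel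
theorem cN_43501 : allRange (fun x => forceN T.chkName x) 43501 489 = true := by decide +kernel
theorem cN_43990 : allRange (fun x => forceN T.chkName x) 43990 501 = true := by decide +kernel
theorem cN_44491 : allRange (fun x => forceN T.chkName x) 44491 487 = true := by decide +kernel
theorem cN_44978 : allRange (fun x => forceN T.chkName x) 44978 492 = true := by decide +kernel
theorem cN_45470 : allRange (fun x => forceN T.chkName x) 45470 502 = true := by decide +kernel
theorem cN_45972 : allRange (fun x => forceN T.chkName x) 45972 500 = true := by decide +kernel
theorem cN_46472 : allRange (fun x => forceN T.chkName x) 46472 498 = true := by decide +kernel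
theorem cN_46970 : allRange (fun x => forceN T.chkName x) 46970 494 = true := by decide +kernel

end Cfsg.Agent.Lib.Helper56.RSz
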